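import Mathlib

set_option autoImplicit false

namespace Cfsg.Agent.H20

open scoped Pointwise

variable {G : Type*} [Group G]

/-- Any two Sylow `p`-subgroups are conjugate, in elementwise form. -/
theorem sylow_conj_iff [Finite G] {p : ℕ} [Fact p.Prime] (S Q : Sylow p G) :
    ∃ h : G, ∀ x, x ∈ (Q : Subgroup G) ↔ h⁻¹ * x * h ∈ (S : Subgroup G) := by
  obtain ⟨h, hh⟩ := MulAction.exists_smul_eq G S Q
  refine ⟨h, fun x => ?_⟩
  rw [← hh]
  change x ∈ MulAut.conj h • (S : Subgroup G) ↔ _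
  rw [Subgroup.mem_pointwise_smul_iff_inv_smul_mem]
  simp only [MulAut.smul_def, ← map_inv, MulAut.conj_apply, inv_inv]

/-- A `p`-subgroup is conjugate into a given Sylow `p`-subgroup, in elementwise form. -/
theorem exists_conj_mem_sylow [Finite G] {p : ℕ} [Fact p.Prime] (S : Sylow p G) {H : Subgroup G}
    (hH : IsPGroup p H) : ∃ h : G, ∀ x ∈ H, h⁻¹ * x * h ∈ (S : Subgroup G) := by
  obtain ⟨Q, hQ⟩ := hH.exists_le_sylow
  obtain ⟨h, hh⟩ := sylow_conj_iff S Q
  exact ⟨h, fun x hx => (hh x).1 (hQ hx)⟩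

end Cfsg.Agent.H20
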