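import Cfsg.Agent.Extra.Basic

/-!
In a (generalised) extraspecial group every homomorphism to the centre which is trivial on the centre is given
by a commutator.
-/

set_option autoImplicit false

open scoped commutatorElement

namespace Cfsg.Agent.H20

open Cfsg.Agent.Extra

theorem exists_embed {Z : Type*} [CommGroup Z] [Finite Z] (hcard : (Nat.card Z).Prime) :
    ∃ ι : Z →* ℂˣ, Function.Injective ι := by
  have hnt : Nontrivial Z := Finite.one_lt_card_iff_nontrivial.1 hcard.one_lt
  obtain ⟨z, hz⟩ := exists_ne (1 : Z)
  obtain ⟨φ, hφ⟩ := CommGroup.exists_apply_ne_one_of_hasEnoughRootsOfUnity Z ℂ hz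
  refine ⟨φ, ?_⟩
  rw [← MonoidHom.ker_eq_bot_iff]
  have : Fact (Nat.card Z).Prime := ⟨hcard⟩
  rcases Subgroup.eq_bot_or_eq_top_of_prime_card φ.ker with h1 | h1
  · exact h1
  · exfalso
    apply hφ
    have : z ∈ φ.ker := by rw [h1]; exact Subgroup.mem_top z
    exact this

theorem ges_hom {E : Type*} [Group E] [Finite E] {p : ℕ} [hp : Fact p.Prime] (h : GES p E)
    (θ : E →* Subgroup.center E) (hθ : ∀ z ∈ Subgroup.center E, θ z = 1) :
    ∃ g : E, ∀ x : E, ⁅g, x⁆ = (θ x : E) := by
  classical
  letI : CommGroup (E ⧸ Subgroup.center E) :=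
    { (inferInstance : Group (E ⧸ Subgroup.center E)) with
      mul_comm := by
        intro a b
        obtain ⟨a, rfl⟩ := QuotientGroup.mk_surjective a
        obtain ⟨b, rfl⟩ := QuotientGroup.mk_surjective b
        rw [← QuotientGroup.mk_mul, ← QuotientGroup.mk_mul, QuotientGroup.eq]
        have h1 := h.classTwo.mem b⁻¹ a⁻¹
        rw [commutatorElement_def] at h1
        convert h1 using 1
        group }
  letI : CommGroup (Subgroup.center E) :=
    { (inferInstance : Group (Subgroup.center E)) with
      mul_comm := fun a b => Subtype.ext (Subgroup.mem_center_iff.1 b.2 a) }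
  -- embedding of the centre
  have hcard : (Nat.card (Subgroup.center E)).Prime := by rw [h.card_center]; exact hp.out
  obtain ⟨ι, hι⟩ := exists_embed hcard
  have hk : ∀ ψ : E →* Subgroup.center E, (∀ z ∈ Subgroup.center E, ψ z = 1) →
      Subgroup.center E ≤ (ι.comp ψ).ker := by
    intro ψ hψ z hz
    rw [MonoidHom.mem_ker, MonoidHom.comp_apply, hψ z hz, map_one]
  have hc : ∀ g : E, ∀ z ∈ Subgroup.center E, commHom h.classTwo g z = 1 := by
    intro g z hz
    apply Subtype.ext
    rw [commHom_apply_coe]
    exact commutatorElement_eq_one_iff_mul_comm.2 (Subgroup.mem_center_iff.1 hz g)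
  let F : E →* ((E ⧸ Subgroup.center E) →* ℂˣ) :=
    { toFun := fun g => QuotientGroup.lift (Subgroup.center E) (ι.comp (commHom h.classTwo g)) (hk _ (hc g))
      map_one' := by
        apply MonoidHom.ext
        intro v
        obtain ⟨v, rfl⟩ := QuotientGroup.mk_surjective v
        rw [QuotientGroup.lift_mk]
        have : commHom h.classTwo 1 v = 1 := by
          apply Subtype.ext
          rw [commHom_apply_coe, commutatorElement_one_left]; rfl
        rw [MonoidHom.comp_apply, this, map_one]
        rfl
      map_mul' := by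
        intro a b
        apply MonoidHom.ext
        intro v
        obtain ⟨v, rfl⟩ := QuotientGroup.mk_surjective v
        rw [QuotientGroup.lift_mk, MonoidHom.mul_apply, QuotientGroup.lift_mk, QuotientGroup.lift_mk]
        have : commHom h.classTwo (a * b) v = commHom h.classTwo a v * commHom h.classTwo b v := by
          apply Subtype.ext
          rw [Subgroup.coe_mul, commHom_apply_coe, commHom_apply_coe, commHom_apply_coe, h.classTwo.mul_left]
        rw [MonoidHom.comp_apply, this, map_mul, MonoidHom.comp_apply, MonoidHom.comp_apply] }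
  have hFa : ∀ g x : E, F g (QuotientGroup.mk x) = ι (commHom h.classTwo g x) := fun g x => rfl
  have hker : F.ker = Subgroup.center E := by
    ext g
    rw [MonoidHom.mem_ker]
    constructor
    · intro hg
      rw [Subgroup.mem_center_iff]
      intro x
      have h1 : F g (QuotientGroup.mk x) = 1 := by rw [hg]; rfl
      rw [hFa] at h1
      have h2 := hι (h1.trans (map_one ι).symm)
      have h3 := congrArg Subtype.val h2
      rw [commHom_apply_coe] at h3
      exact (commutatorElement_eq_one_iff_mul_comm.1 h3).symm
    · intro hg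
      apply MonoidHom.ext
      intro v
      obtain ⟨x, rfl⟩ := QuotientGroup.mk_surjective v
      rw [hFa]
      have : commHom h.classTwo g x = 1 := by
        apply Subtype.ext
        rw [commHom_apply_coe]
        exact commutatorElement_eq_one_iff_mul_comm.2 ((Subgroup.mem_center_iff.1 hg x).symm)
      rw [this, map_one]; rfl
  have hfin : Finite ((E ⧸ Subgroup.center E) →* ℂˣ) := by
    have : Nat.card ((E ⧸ Subgroup.center E) →* ℂˣ) = Nat.card (E ⧸ Subgroup.center E) :=
      CommGroup.card_monoidHom_of_hasEnoughRootsOfUnity _ ℂ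
    apply Nat.finite_of_card_ne_zero
    rw [this]
    exact Nat.card_pos.ne'
  have hsurj : F.range = ⊤ := by
    rw [← Subgroup.card_eq_iff_eq_top, ← Subgroup.index_ker, hker,
      CommGroup.card_monoidHom_of_hasEnoughRootsOfUnity]
    rfl
  obtain ⟨g, hg⟩ : (QuotientGroup.lift (Subgroup.center E) (ι.comp θ) (hk θ hθ)) ∈ F.range := by
    rw [hsurj]; exact Subgroup.mem_top _
  refine ⟨g, fun x => ?_⟩
  have h1 : F g (QuotientGroup.mk x) = ι (θ x) := by rw [hg]; rfl
  rw [hFa] at h1
  have h2 := congrArg Subtype.val (hι h1)
  rw [commHom_apply_coe] at h2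
  exact h2

end Cfsg.Agent.H20
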