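import Mathlib

/-! Gleason's lemma: a uniform transitivity criterion. -/

set_option autoImplicit false

open MulAction

namespace Cfsg.Agent.H20

theorem dvd_card_of_orbits {H β : Type*} [Group H] [MulAction H β] [Finite β] {d : ℕ}
    (h : ∀ x : β, d ∣ Nat.card (orbit H x)) : d ∣ Nat.card β := by
  classical
  have e := MulAction.selfEquivSigmaOrbits H β
  have : Finite (Quotient (orbitRel H β)) := inferInstance
  have := Fintype.ofFinite (Quotient (orbitRel H β))
  have := Fintype.ofFinite β
  rw [Nat.card_congr e, Nat.card_sigma]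
  exact Finset.dvd_sum (fun ω _ => h _)

section

variable {G α : Type*} [Group G] [MulAction G α] [Finite α]

/-- a subset stable under `H` -/
def stabSub (H : Subgroup G) (T : Set α) (hT : ∀ h ∈ H, ∀ x ∈ T, h • x ∈ T) : SubMulAction H α where
  carrier := T
  smul_mem' := fun h x hx => hT h h.2 x hx

theorem dvd_ncard {d : ℕ} (H : Subgroup G) (T : Set α) (hT : ∀ h ∈ H, ∀ x ∈ T, h • x ∈ T)
    (h : ∀ x ∈ T, d ∣ Nat.card (orbit H x)) : d ∣ T.ncard := by
  have h1 : d ∣ Nat.card (stabSub H T hT) := by
    apply dvd_card_of_orbits (H := H)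
    intro x
    have h2 := h x x.2
    rw [← SubMulAction.val_image_orbit x, Nat.card_image_of_injective Subtype.val_injective] at h2
    exact h2
  exact h1

/-- the hypothesis: every `k`-set is fixed pointwise by a subgroup all whose other orbits have length divisible by `d` -/
def UnifHyp (G α : Type*) [Group G] [MulAction G α] (d k : ℕ) : Prop :=
  ∀ s : Finset α, s.card = k → ∃ H : Subgroup G, (∀ a ∈ s, ∀ h ∈ H, h • a = a) ∧
    ∀ x : α, x ∉ s → d ∣ Nat.card (orbit H x)

theorem unif_transitive {d k : ℕ} (hd : 1 < d) (hk : 1 ≤ k) (hkn : k < Nat.card α) (h : UnifHyp G α d k) :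
    IsPretransitive G α := by
  classical
  have := Fintype.ofFinite α
  refine ⟨fun x y => ?_⟩
  by_contra hcon
  have hy : y ∉ orbit G x := fun hy => hcon hy
  have hxy : x ≠ y := fun h => hy (h ▸ mem_orbit_self x)
  -- a set containing x and not y
  obtain ⟨s, hs1, hs2, hs3⟩ : ∃ s : Finset α, x ∈ s ∧ y ∉ s ∧ s.card = k := by
    have h1 : ({x} : Finset α) ⊆ (Finset.univ.erase y) := by
      intro z hz
      rw [Finset.mem_singleton] at hz
      rw [hz, Finset.mem_erase]
      exact ⟨hxy, Finset.mem_univ x⟩
    have h2 : (Finset.univ.erase y : Finset α).card = Nat.card α - 1 := by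
      rw [Finset.card_erase_of_mem (Finset.mem_univ y), Finset.card_univ, Nat.card_eq_fintype_card]
    obtain ⟨s, hs, hs', hs''⟩ := Finset.exists_subsuperset_card_eq h1 (n := k) (by rw [Finset.card_singleton]; exact hk)
      (by rw [h2]; omega)
    refine ⟨s, hs (Finset.mem_singleton_self x), fun hy' => ?_, hs''⟩
    exact (Finset.notMem_erase y _) (hs' hy')
  set O : Set α := orbit G x with hO
  have key : ∀ t : Finset α, t.card = k → d ∣ (O \ t).ncard := by
    intro t ht
    obtain ⟨H, hH1, hH2⟩ := h t ht
    apply dvd_ncard H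
    · rintro g hg z ⟨hz1, hz2⟩
      refine ⟨?_, ?_⟩
      · rw [hO] at hz1 ⊢
        exact mem_orbit_of_mem_orbit g hz1
      · intro hgz
        apply hz2
        have h3 := hH1 _ hgz g⁻¹ (inv_mem hg)
        rw [inv_smul_smul] at h3
        rw [h3]; exact hgz
    · intro z hz
      exact hH2 z hz.2
  have h1 := key s hs3
  set t : Finset α := insert y (s.erase x) with ht
  have htc : t.card = k := by
    rw [ht, Finset.card_insert_of_notMem, Finset.card_erase_of_mem hs1, hs3]
    · omega
    · intro h4
      exact hs2 (Finset.mem_of_mem_erase h4)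
  have h2 := key t htc
  have h3 : O \ t = insert x (O \ s) := by
    ext z
    simp only [ht, Set.mem_diff, Finset.coe_insert, Finset.coe_erase, Set.mem_insert_iff, SetLike.mem_coe,
      Set.mem_singleton_iff]
    constructor
    · rintro ⟨hz, h5⟩
      by_cases hzx : z = x
      · exact Or.inl hzx
      · right
        refine ⟨hz, fun h6 => h5 (Or.inr ⟨h6, hzx⟩)⟩
    · rintro (rfl | ⟨hz, h5⟩)
      · refine ⟨mem_orbit_self z, ?_⟩
        rintro (h6 | h6)
        · exact hxy h6
        · exact h6.2 rfl
      · refine ⟨hz, ?_⟩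
        rintro (h6 | h6)
        · rw [h6] at hz; exact hy hz
        · exact h5 h6.1
  rw [h3, Set.ncard_insert_of_notMem (by
    intro h4
    exact h4.2 hs1) (Set.toFinite _)] at h2
  have h4 := (Nat.dvd_add_right h1).1 h2
  have h5 := Nat.le_of_dvd one_pos h4
  omega

end

theorem unif_multiply {d : ℕ} (hd : 1 < d) (k : ℕ) :
    ∀ (G α : Type*) [Group G] [MulAction G α] [Finite α], 1 ≤ k → k < Nat.card α → UnifHyp G α d k →
      IsMultiplyPretransitive G α k := by
  classical
  induction k with
  | zero => intro G α _ _ _ h1; omega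
  | succ m ih =>
    intro G α _ _ _ _ hkn h
    have htr : IsPretransitive G α := unif_transitive hd (by omega) hkn h
    rcases Nat.eq_zero_or_pos m with rfl | hm
    · rw [zero_add, is_one_pretransitive_iff]
      exact htr
    · have hne : Nonempty α := (Nat.card_pos_iff.1 (by omega)).1
      obtain ⟨a⟩ := hne
      rw [← Nat.succ_eq_add_one, SubMulAction.ofStabilizer.isMultiplyPretransitive (a := a)]
      apply ih
      · exact hm
      · rw [SubMulAction.nat_card_ofStabilizer_eq]; omega
      · intro s' hs'
        set s : Finset α := insert a (s'.map ⟨Subtype.val, Subtype.val_injective⟩) with hs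
        have hmem : ∀ x : SubMulAction.ofStabilizer G a, (x : α) ∈ s ↔ x ∈ s' := by
          intro x
          rw [hs, Finset.mem_insert, Finset.mem_map]
          constructor
          · rintro (h1 | ⟨y, hy, hyx⟩)
            · exact absurd h1 (SubMulAction.neq_of_mem_ofStabilizer G a)
            · have : y = x := Subtype.ext hyx
              rwa [← this]
          · intro hx
            exact Or.inr ⟨x, hx, rfl⟩
        have hsc : s.card = m + 1 := by
          rw [hs, Finset.card_insert_of_notMem, Finset.card_map, hs']
          rw [Finset.mem_map]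
          rintro ⟨y, hy, hya⟩
          exact SubMulAction.neq_of_mem_ofStabilizer G a hya
        obtain ⟨H, hH1, hH2⟩ := h s hsc
        have hHa : ∀ g ∈ H, g • a = a := fun g hg => hH1 a (Finset.mem_insert_self a _) g hg
        refine ⟨H.subgroupOf (stabilizer G a), ?_, ?_⟩
        · intro b hb g hg
          apply Subtype.ext
          exact hH1 b ((hmem b).2 hb) g hg
        · intro x hx
          have h3 := hH2 x (fun h4 => hx ((hmem x).1 h4))
          have h5 : orbit H (x : α) = Subtype.val '' (orbit (H.subgroupOf (stabilizer G a)) x) := by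
            ext z
            constructor
            · rintro ⟨g, rfl⟩
              exact ⟨(⟨⟨(g : G), hHa g g.2⟩, g.2⟩ : H.subgroupOf (stabilizer G a)) • x, ⟨_, rfl⟩, rfl⟩
            · rintro ⟨_, ⟨g, rfl⟩, rfl⟩
              exact ⟨⟨((g : stabilizer G a) : G), g.2⟩, rfl⟩
          rw [h5, Nat.card_image_of_injective Subtype.val_injective] at h3
          exact h3

end Cfsg.Agent.H20
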