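import Mathlib
import Cfsg.Agent.S0126
import Cfsg.Agent.Frob.Action

/-!
Half-transitive linear actions of `p`-groups, `p` odd.
-/

set_option autoImplicit false

namespace Cfsg.Agent.H20

section norm

variable {P E : Type*} [Group P] [Finite P] [AddCommGroup E] [DistribMulAction P E]

/-- norm operator of a subgroup -/
noncomputable def nmop (X : Subgroup P) (v : E) : E :=
  letI : Fintype X := Fintype.ofFinite X
  ∑ x : X, (x : P) • v

variable {X : Subgroup P}

theorem smul_nmop {x : P} (hx : x ∈ X) (v : E) : x • nmop X v = nmop X v := by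
  letI : Fintype X := Fintype.ofFinite X
  simp only [nmop, Finset.smul_sum, smul_smul]
  exact Fintype.sum_equiv (Equiv.mulLeft (⟨x, hx⟩ : X)) _ _ (fun y => rfl)

theorem nmop_smul {x : P} (hx : x ∈ X) (v : E) : nmop X (x • v) = nmop X v := by
  letI : Fintype X := Fintype.ofFinite X
  simp only [nmop, smul_smul]
  exact Fintype.sum_equiv (Equiv.mulRight (⟨x, hx⟩ : X)) _ _ (fun y => rfl)

theorem nmop_add (u v : E) : nmop X (u + v) = nmop X u + nmop X v := by
  simp only [nmop, smul_add, Finset.sum_add_distrib]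

theorem nmop_neg (u : E) : nmop X (-u) = - nmop X u := by
  simp only [nmop, smul_neg, Finset.sum_neg_distrib]

theorem nmop_sub (u v : E) : nmop X (u - v) = nmop X u - nmop X v := by
  rw [sub_eq_add_neg, nmop_add, nmop_neg, sub_eq_add_neg]

theorem nmop_fixed {v : E} (h : ∀ x ∈ X, x • v = v) : nmop X v = Nat.card X • v := by
  letI : Fintype X := Fintype.ofFinite X
  simp only [nmop]
  rw [Finset.sum_congr rfl (fun (x : X) _ => h (x : P) x.2), Finset.sum_const, Finset.card_univ,
    Nat.card_eq_fintype_card]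

theorem smul_nmop_of_normal [hX : X.Normal] (g : P) (v : E) : g • nmop X v = nmop X (g • v) := by
  letI : Fintype X := Fintype.ofFinite X
  simp only [nmop, Finset.smul_sum, smul_smul]
  refine Fintype.sum_equiv (MulAut.conjNormal g : MulAut X).toEquiv _ _ (fun y => ?_)
  change (g * (y : P)) • v = (((MulAut.conjNormal g y : X) : P) * g) • v
  rw [MulAut.conjNormal_apply]
  congr 1
  group

theorem smul_nmop_of_comm {g : P} (hg : ∀ x ∈ X, g * x = x * g) (v : E) : g • nmop X v = nmop X (g • v) := by
  letI : Fintype X := Fintype.ofFinite X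
  simp only [nmop, Finset.smul_sum, smul_smul]
  exact Finset.sum_congr rfl (fun (x : X) _ => by rw [hg x x.2])

end norm

section half

variable {P E : Type*} [Group P] [Finite P] [AddCommGroup E] [DistribMulAction P E]

theorem stab_add_eq (hconst : ∀ a b : E, a ≠ 0 → b ≠ 0 →
      Nat.card (MulAction.stabilizer P a) = Nat.card (MulAction.stabilizer P b))
    {u v : E} (hu : u ≠ 0) (hv : v ≠ 0) (huv : u + v ≠ 0)
    (h : ∀ g : P, g • (u + v) = u + v → g • u = u ∧ g • v = v) :
    MulAction.stabilizer P u = MulAction.stabilizer P v := by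
  have h1 : MulAction.stabilizer P (u + v) ≤ MulAction.stabilizer P u := fun g hg => (h g hg).1
  have h2 : MulAction.stabilizer P (u + v) ≤ MulAction.stabilizer P v := fun g hg => (h g hg).2
  have h3 := Subgroup.eq_of_le_of_card_ge h1 (hconst u (u + v) hu huv).le
  have h4 := Subgroup.eq_of_le_of_card_ge h2 (hconst v (u + v) hv huv).le
  rw [← h3, ← h4]

/-- a nontrivial normal subgroup has no fixed points -/
theorem half_normal_fixed [FaithfulSMul P E] (hconst : ∀ a b : E, a ≠ 0 → b ≠ 0 →
      Nat.card (MulAction.stabilizer P a) = Nat.card (MulAction.stabilizer P b))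
    (hcop : ∀ X : Subgroup P, ∀ v : E, Nat.card X • v = 0 → v = 0)
    (X : Subgroup P) [X.Normal] (hX : X ≠ ⊥) {u : E} (hu : ∀ x ∈ X, x • u = u) : u = 0 := by
  by_contra hu0
  -- a vector of norm zero
  obtain ⟨v, hv, hv0⟩ : ∃ v : E, nmop X v = 0 ∧ v ≠ 0 := by
    by_contra hcon
    push Not at hcon
    apply hX
    rw [Subgroup.eq_bot_iff_forall]
    intro x hx
    apply FaithfulSMul.eq_of_smul_eq_smul (α := E)
    intro w
    rw [one_smul]
    have h1 := hcon (x • w - w) (by rw [nmop_sub, nmop_smul hx, sub_self])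
    exact sub_eq_zero.1 h1
  have key : ∀ w : E, nmop X w = 0 → (∀ x ∈ X, x • w = w) → w = 0 := by
    intro w h1 h2
    rw [nmop_fixed h2] at h1
    exact hcop X w h1
  have huv : u + v ≠ 0 := by
    intro h
    apply hv0
    apply key v hv
    intro x hx
    have : v = -u := (neg_eq_of_add_eq_zero_right h).symm
    rw [this, smul_neg, hu x hx]
  have heq := stab_add_eq hconst hu0 hv0 huv (by
    intro g hg
    have h1 : g • u - u = -(g • v - v) := by
      rw [smul_add] at hg
      have h2 : g • u + g • v - (u + v) = 0 := sub_eq_zero.2 hg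
      rw [neg_sub]
      rw [sub_eq_sub_iff_add_eq_add, hg]
      abel
    have h2 : g • u - u = 0 := by
      apply key
      · rw [h1, nmop_neg, nmop_sub, ← smul_nmop_of_normal, hv, smul_zero, sub_zero, neg_zero]
      · intro x hx
        have h3 : x • g • u = g • u := by
          have hn : g⁻¹ * x * g ∈ X := by
            have := (inferInstance : X.Normal).conj_mem x hx g⁻¹
            simpa using this
          calc x • g • u = g • (g⁻¹ * x * g) • u := by rw [smul_smul, smul_smul]; congr 1; group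
            _ = g • u := by rw [hu _ hn]
        rw [smul_sub, h3, hu x hx]
    refine ⟨sub_eq_zero.1 h2, ?_⟩
    rw [h2] at h1
    exact sub_eq_zero.1 (neg_eq_zero.1 h1.symm))
  apply hv0
  apply key v hv
  intro x hx
  have h1 : x ∈ MulAction.stabilizer P u := hu x hx
  rw [heq] at h1
  exact h1

theorem fixed_zpowers {c : P} {v : E} (h : c • v = v) : ∀ x ∈ Subgroup.zpowers c, x • v = v := by
  intro x hx
  have h1 : Subgroup.zpowers c ≤ MulAction.stabilizer P v := by
    rw [Subgroup.zpowers_le]; exact h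
  exact h1 hx

theorem half_cyclic [Finite E] [FaithfulSMul P E] {p : ℕ} [hpf : Fact p.Prime] (hp2 : p ≠ 2) (hP : IsPGroup p P)
    (hconst : ∀ a b : E, a ≠ 0 → b ≠ 0 →
      Nat.card (MulAction.stabilizer P a) = Nat.card (MulAction.stabilizer P b))
    (hcop : ∀ X : Subgroup P, ∀ v : E, Nat.card X • v = 0 → v = 0) : IsCyclic P := by
  classical
  by_contra hnc
  obtain ⟨A, hAn, hAe, hAc⟩ := Cfsg.Agent.S0126.result hp2 hP hnc
  have hp := hpf.out
  have hAbot : A ≠ ⊥ := by
    rintro rfl
    rw [Subgroup.card_bot] at hAc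
    have := Nat.one_lt_pow (n := 2) (by norm_num) hp.one_lt
    omega
  have hcomm : ∀ x ∈ A, ∀ y ∈ A, x * y = y * x := fun x hx y hy =>
    congrArg Subtype.val (hAe.1.is_comm.comm (⟨x, hx⟩ : A) ⟨y, hy⟩)
  have hpow : ∀ x ∈ A, x ^ p = 1 := hAe.2
  have hord : ∀ x ∈ A, x ≠ 1 → orderOf x = p := fun x hx h1 => orderOf_eq_prime (hpow x hx) h1
  -- fixed by two independent elements
  have F0 : ∀ c ∈ A, ∀ d ∈ A, d ≠ 1 → c ∉ Subgroup.zpowers d → ∀ w : E, c • w = w → d • w = w → w = 0 := by
    intro c hc d hd hd1 hcd w hcw hdw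
    apply half_normal_fixed hconst hcop A hAbot
    have h1 : A ⊓ MulAction.stabilizer P w = A := by
      apply Subgroup.eq_of_le_of_card_ge inf_le_left
      have h2 : Nat.card (A ⊓ MulAction.stabilizer P w : Subgroup P) ∣ p ^ 2 := by
        rw [← hAc]; exact Subgroup.card_dvd_of_le inf_le_left
      obtain ⟨k, hk, hk2⟩ := (Nat.dvd_prime_pow hp).1 h2
      have h3 : Subgroup.zpowers d < A ⊓ MulAction.stabilizer P w := by
        refine lt_of_le_of_ne (by rw [Subgroup.zpowers_le]; exact ⟨hd, hdw⟩) ?_
        intro h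
        apply hcd
        rw [h]
        exact ⟨hc, hcw⟩
      have h4 : p < Nat.card (A ⊓ MulAction.stabilizer P w : Subgroup P) := by
        have : Nat.card (Subgroup.zpowers d) < Nat.card (A ⊓ MulAction.stabilizer P w : Subgroup P) := by
          by_contra hle
          exact h3.ne (Subgroup.eq_of_le_of_card_ge h3.le (not_lt.1 hle))
        rwa [Nat.card_zpowers, hord d hd hd1] at this
      have h5 : k = 2 := by
        interval_cases k
        · rw [hk2, pow_zero] at h4; exact absurd h4 (by have := hp.one_lt; omega)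
        · rw [hk2, pow_one] at h4; exact absurd h4 (lt_irrefl _)
        · rfl
      rw [hk2, h5, hAc]
    intro x hx
    rw [← h1] at hx
    exact hx.2
  have F1 : ∀ c ∈ A, c ≠ 1 → ∀ v : E, c • v = v → nmop (Subgroup.zpowers c) v = p • v := by
    intro c hc hc1 v hv
    rw [nmop_fixed (fixed_zpowers hv), Nat.card_zpowers, hord c hc hc1]
  have F2 : ∀ c ∈ A, ∀ d ∈ A, d ≠ 1 → c ∉ Subgroup.zpowers d → ∀ v : E, d • v = v →
      nmop (Subgroup.zpowers c) v = 0 := by
    intro c hc d hd hd1 hcd v hv
    apply F0 c hc d hd hd1 hcd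
    · exact smul_nmop (Subgroup.mem_zpowers c) v
    · rw [smul_nmop_of_comm, hv]
      rintro _ ⟨n, rfl⟩
      exact hcomm d hd _ (zpow_mem hc n)
  have F3 : ∀ c ∈ A, ∀ d ∈ A, c ≠ 1 → c ∈ Subgroup.zpowers d → Subgroup.zpowers c = Subgroup.zpowers d := by
    intro c hc d hd hc1 hcd
    have hd1 : d ≠ 1 := by
      rintro rfl
      apply hc1
      rw [Subgroup.zpowers_one_eq_bot] at hcd
      exact Subgroup.mem_bot.1 hcd
    apply Subgroup.eq_of_le_of_card_ge (by rw [Subgroup.zpowers_le]; exact hcd)
    rw [Nat.card_zpowers, Nat.card_zpowers, hord c hc hc1, hord d hd hd1]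
  have hpE : ∀ v : E, p • v = 0 → v = 0 := by
    obtain ⟨a, ha, ha1⟩ := Subgroup.ne_bot_iff_exists_ne_one.1 hAbot |>.elim (fun a h => (⟨a, a.2, fun h1 => h (Subtype.ext h1)⟩ : ∃ a, a ∈ A ∧ a ≠ 1))
    intro v hv
    apply hcop (Subgroup.zpowers a) v
    rwa [Nat.card_zpowers, hord a ha ha1]
  -- E is nontrivial
  have hEn : Nontrivial E := by
    by_contra h
    rw [not_nontrivial_iff_subsingleton] at h
    apply hAbot
    rw [Subgroup.eq_bot_iff_forall]
    intro x _
    exact FaithfulSMul.eq_of_smul_eq_smul (α := E) (fun w => Subsingleton.elim _ _)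
  -- a fixed vector
  obtain ⟨a, ha, ha1, v₁, hv1, hav1⟩ : ∃ a ∈ A, a ≠ 1 ∧ ∃ v : E, v ≠ 0 ∧ a • v = v := by
    by_contra hcon
    push Not at hcon
    let φ : A →* MulAut (Multiplicative E) :=
      { toFun := fun a => AddEquiv.toMultiplicative (DistribMulAction.toAddEquiv E (a : P))
        map_one' := by
          ext v
          change Multiplicative.ofAdd ((1 : P) • Multiplicative.toAdd v) = v
          rw [one_smul]; rfl
        map_mul' := by
          intro x y
          ext v
          change Multiplicative.ofAdd (((x : P) * (y : P)) • Multiplicative.toAdd v) = Multiplicative.ofAdd ((x : P) • (y : P) • Multiplicative.toAdd v)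
          rw [mul_smul] }
    have hφ : Cfsg.Agent.Frob.IsFPF φ := by
      intro a ha w hw
      by_contra hw1
      exact hcon a a.2 (fun h => ha (Subtype.ext h)) (Multiplicative.toAdd w) hw1 hw
    have hcyc : IsCyclic A := hφ.isCyclic_of_card_eq_mul hp hp (by rw [hAc, pow_two])
    obtain ⟨g, hg⟩ := hcyc.exists_ofOrder_eq_natCard
    have h1 : orderOf g ∣ p := by
      rw [orderOf_dvd_iff_pow_eq_one]
      exact Subtype.ext (hAe.2 g g.2)
    rw [hg, hAc] at h1
    have h2 := Nat.le_of_dvd hp.pos h1
    have h3 := hp.one_lt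
    nlinarith
  -- a conjugate of ⟨a⟩
  obtain ⟨g, hg⟩ : ∃ g : P, g * a * g⁻¹ ∉ Subgroup.zpowers a := by
    by_contra hcon
    push Not at hcon
    have hn : (Subgroup.zpowers a).Normal := by
      refine ⟨?_⟩
      rintro _ ⟨n, rfl⟩ g
      simp only
      rw [← conj_zpow]
      exact zpow_mem (hcon g) n
    apply hv1
    apply half_normal_fixed hconst hcop (Subgroup.zpowers a) _ (fixed_zpowers hav1)
    intro h
    exact ha1 (Subgroup.zpowers_eq_bot.1 h)
  set b := g * a * g⁻¹ with hb
  have hbA : b ∈ A := hAn.conj_mem a ha g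
  have hb1 : b ≠ 1 := by
    intro h
    apply hg
    rw [h]; exact one_mem _
  have hab : a ∉ Subgroup.zpowers b := by
    intro h
    apply hg
    rw [F3 a ha b hbA ha1 h]
    exact Subgroup.mem_zpowers b
  set v₂ := g • v₁ with hv2
  have hbv2 : b • v₂ = v₂ := by
    rw [hv2, hb, smul_smul]
    rw [show g * a * g⁻¹ * g = g * a by group, mul_smul, hav1]
  have hv20 : v₂ ≠ 0 := by
    intro h
    exact hv1 (by rwa [hv2, smul_eq_zero_iff_eq] at h)
  have hsum : v₁ + v₂ ≠ 0 := by
    intro h
    apply hv1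
    apply F0 b hbA a ha ha1 hg v₁ _ hav1
    have : v₁ = -v₂ := eq_neg_of_add_eq_zero_left h
    rw [this, smul_neg, hbv2]
  have hst := stab_add_eq hconst hv1 hv20 hsum (by
    intro h hh
    set a' := h * a * h⁻¹ with ha'
    set b' := h * b * h⁻¹ with hb'
    have ha'A : a' ∈ A := hAn.conj_mem a ha h
    have hb'A : b' ∈ A := hAn.conj_mem b hbA h
    have ha'1 : a' ≠ 1 := fun h1 => ha1 (conj_eq_one_iff.1 h1)
    have hb'1 : b' ≠ 1 := fun h1 => hb1 (conj_eq_one_iff.1 h1)
    have ha'b' : a' ∉ Subgroup.zpowers b' := by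
      rintro ⟨n, hn⟩
      apply hab
      refine ⟨n, ?_⟩
      simp only at hn ⊢
      rw [hb', conj_zpow, ha'] at hn
      exact mul_left_cancel (mul_right_cancel hn)
    have hav : a' • (h • v₁) = h • v₁ := by
      rw [ha', smul_smul, show h * a * h⁻¹ * h = h * a by group, mul_smul, hav1]
    have hbv : b' • (h • v₂) = h • v₂ := by
      rw [hb', smul_smul, show h * b * h⁻¹ * h = h * b by group, mul_smul, hbv2]
    have e1 : nmop (Subgroup.zpowers a') (h • v₁) + nmop (Subgroup.zpowers a') (h • v₂) =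
        nmop (Subgroup.zpowers a') v₁ + nmop (Subgroup.zpowers a') v₂ := by
      rw [← nmop_add, ← nmop_add, ← smul_add, hh]
    rw [F1 a' ha'A ha'1 _ hav, F2 a' ha'A b' hb'A hb'1 ha'b' _ hbv, add_zero] at e1
    rw [smul_add] at hh
    by_cases c1 : a' ∈ Subgroup.zpowers a
    · have c2 : a' ∉ Subgroup.zpowers b := by
        intro c2
        have h1 := F3 a' ha'A a ha ha'1 c1
        have h2 := F3 a' ha'A b hbA ha'1 c2
        apply hg
        rw [← h1, h2]
        exact Subgroup.mem_zpowers b
      have h3 : nmop (Subgroup.zpowers a') v₁ = p • v₁ := by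
        rw [F3 a' ha'A a ha ha'1 c1]
        exact F1 a ha ha1 _ hav1
      rw [h3, F2 a' ha'A b hbA hb1 c2 _ hbv2, add_zero] at e1
      have h4 : h • v₁ = v₁ := by
        rw [← sub_eq_zero]
        apply hpE
        rw [smul_sub, e1, sub_self]
      refine ⟨h4, ?_⟩
      rw [h4] at hh
      exact add_left_cancel hh
    · rw [F2 a' ha'A a ha ha1 c1 _ hav1, zero_add] at e1
      by_cases c2 : a' ∈ Subgroup.zpowers b
      · have h3 : nmop (Subgroup.zpowers a') v₂ = p • v₂ := by
          rw [F3 a' ha'A b hbA ha'1 c2]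
          exact F1 b hbA hb1 _ hbv2
        rw [h3] at e1
        have h4 : h • v₁ = v₂ := by
          rw [← sub_eq_zero]
          apply hpE
          rw [smul_sub, e1, sub_self]
        have h5 : h • v₂ = v₁ := by
          rw [h4, add_comm v₁ v₂] at hh
          exact add_left_cancel hh
        -- odd order
        have h6 : (h ^ 2) • v₁ = v₁ := by rw [pow_two, mul_smul, h4, h5]
        have h7 : h • v₁ = v₁ := by
          obtain ⟨k, hk⟩ := (IsPGroup.iff_orderOf.1 hP) h
          have hodd : (orderOf h).Coprime 2 := by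
            rw [hk]
            exact Nat.Coprime.pow_left k ((Nat.coprime_primes hp Nat.prime_two).2 hp2)
          obtain ⟨n, hn⟩ := exists_pow_eq_self_of_coprime hodd.symm
          have h8 := fixed_zpowers h6 ((h ^ 2) ^ n) (Subgroup.npow_mem_zpowers _ n)
          rwa [hn] at h8
        exfalso
        apply hv1
        apply F0 b hbA a ha ha1 hg v₁ _ hav1
        have : v₁ = v₂ := by rw [← h4, h7]
        rw [this, hbv2]
      · rw [F2 a' ha'A b hbA hb1 c2 _ hbv2] at e1
        exfalso
        apply hv1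
        have := hpE _ e1
        rwa [smul_eq_zero_iff_eq] at this)
  have hbst : b ∈ MulAction.stabilizer P v₂ := hbv2
  rw [← hst] at hbst
  exact hv1 (F0 b hbA a ha ha1 hg v₁ hbst hav1)

end half

end Cfsg.Agent.H20
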