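import Cfsg.Agent.S1160
import Cfsg.Agent.Solv.Core
import Cfsg.Agent.Solv.MinNormal
import Cfsg.Agent.Supersolvable.Structure

/-!
Fitting subgroup of a transitive linear group of odd order.
-/

set_option autoImplicit false

namespace Cfsg.Agent.H20

open Cfsg.Agent.Solv

section trans

variable {D E : Type*} [Group D] [Finite D] [AddCommGroup E] [Finite E] [DistribMulAction D E] [FaithfulSMul D E]

theorem trans_normal_const (N : Subgroup D) [hN : N.Normal]
    (htrans : ∀ a b : E, a ≠ 0 → b ≠ 0 → ∃ d : D, d • a = b) :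
    ∀ a b : E, a ≠ 0 → b ≠ 0 →
      Nat.card (MulAction.stabilizer N a) = Nat.card (MulAction.stabilizer N b) := by
  intro a b ha hb
  obtain ⟨d, rfl⟩ := htrans a b ha hb
  refine Nat.card_congr
    { toFun := fun n => ⟨⟨d * (n.1 : D) * d⁻¹, hN.conj_mem _ n.1.2 d⟩, ?_⟩
      invFun := fun n => ⟨⟨d⁻¹ * (n.1 : D) * d, by
        have := hN.conj_mem _ n.1.2 d⁻¹
        rwa [inv_inv] at this⟩, ?_⟩
      left_inv := fun n => Subtype.ext (Subtype.ext (by simp only; group))
      right_inv := fun n => Subtype.ext (Subtype.ext (by simp only; group)) }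
  · have h : (n.1 : D) • a = a := n.2
    change (d * (n.1 : D) * d⁻¹) • d • a = d • a
    rw [smul_smul, show d * (n.1 : D) * d⁻¹ * d = d * (n.1 : D) by group, mul_smul, h]
  · have h : (n.1 : D) • d • a = d • a := n.2
    change (d⁻¹ * (n.1 : D) * d) • a = a
    rw [mul_smul, mul_smul, h, inv_smul_smul]

theorem trans_pCore (hodd : Odd (Nat.card D)) {q : ℕ} (hq : q.Prime) (hE : ∀ e : E, q • e = 0)
    (htrans : ∀ a b : E, a ≠ 0 → b ≠ 0 → ∃ d : D, d • a = b) (p : ℕ) [hp : Fact p.Prime] :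
    IsCyclic (Cfsg.pCore p D) ∧ ∀ g ∈ Cfsg.pCore p D, g ≠ 1 → ∀ a : E, g • a = a → a = 0 := by
  by_cases hp2 : p = 2
  · subst hp2
    have hbot : Cfsg.pCore 2 D = ⊥ := by
      obtain ⟨k, hk⟩ := IsPGroup.iff_card.1 (pCore_isPGroup (G := D) 2)
      have h1 : Nat.card (Cfsg.pCore 2 D) ∣ Nat.card D := Subgroup.card_subgroup_dvd_card _
      have h2 : Odd (Nat.card (Cfsg.pCore 2 D)) := Odd.of_dvd_nat hodd h1
      rw [hk] at h2
      rw [← Subgroup.card_eq_one, hk]
      rcases Nat.eq_zero_or_pos k with h0 | h0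
      · rw [h0, pow_zero]
      · exfalso
        exact (Nat.not_even_iff_odd.2 h2) ((Nat.even_pow' h0.ne').2 (by decide))
    rw [hbot]
    exact ⟨inferInstance, fun g hg h1 => absurd (Subgroup.mem_bot.1 hg) h1⟩
  · have hf : FaithfulSMul (Cfsg.pCore p D) E := ⟨fun {m₁ m₂} h => Subtype.ext
      (FaithfulSMul.eq_of_smul_eq_smul (α := E) (fun a => h a))⟩
    have h := Cfsg.Agent.S1160.result (P := Cfsg.pCore p D) (E := E) hp2 (pCore_isPGroup p) hq hE
      (trans_normal_const _ htrans)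
    exact ⟨h.1, fun g hg h1 a ha => h.2 ⟨g, hg⟩ (fun h2 => h1 (congrArg Subtype.val h2)) a ha⟩

/-- a Sylow subgroup of the Fitting subgroup is in the core -/
theorem sylow_fitting_le {p : ℕ} [hp : Fact p.Prime] (P : Sylow p (Cfsg.fittingSubgroup D)) :
    (P : Subgroup (Cfsg.fittingSubgroup D)).map (Cfsg.fittingSubgroup D).subtype ≤ Cfsg.pCore p D := by
  have hnil : Group.IsNilpotent (Cfsg.fittingSubgroup D) := fitting_isNilpotent
  have hn : (P : Subgroup (Cfsg.fittingSubgroup D)).Normal := by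
    have q := (Group.isNilpotent_of_finite_tfae (G := Cfsg.fittingSubgroup D)).out 0 3
    exact (q.1 hnil) p hp P
  have hc : (P : Subgroup (Cfsg.fittingSubgroup D)).Characteristic := P.characteristic_of_normal hn
  have hFn : (Cfsg.fittingSubgroup D).Normal := inferInstance
  exact le_pCore inferInstance (P.2.map _)

theorem trans_fitting (hodd : Odd (Nat.card D)) {q : ℕ} (hq : q.Prime) (hE : ∀ e : E, q • e = 0)
    (htrans : ∀ a b : E, a ≠ 0 → b ≠ 0 → ∃ d : D, d • a = b) :
    IsCyclic (Cfsg.fittingSubgroup D) ∧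
      (∀ g ∈ Cfsg.fittingSubgroup D, g ≠ 1 → ∀ a : E, g • a = a → a = 0) := by
  have hnil : Group.IsNilpotent (Cfsg.fittingSubgroup D) := fitting_isNilpotent
  refine ⟨?_, ?_⟩
  · have hZ : IsZGroup (Cfsg.fittingSubgroup D) := by
      rw [isZGroup_iff]
      intro p hp P
      have : Fact p.Prime := ⟨hp⟩
      have h1 := (trans_pCore hodd hq hE htrans p).1
      have h2 : IsCyclic ((P : Subgroup (Cfsg.fittingSubgroup D)).map (Cfsg.fittingSubgroup D).subtype) :=
        Subgroup.isCyclic_of_le (sylow_fitting_le P)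
      exact (MulEquiv.isCyclic ((P : Subgroup (Cfsg.fittingSubgroup D)).equivMapOfInjective _
        (Cfsg.fittingSubgroup D).subtype_injective)).2 h2
    infer_instance
  · intro g hg hg1 a ha
    obtain ⟨p, hp, hpd⟩ := Nat.exists_prime_and_dvd (n := orderOf g) (fun h => hg1 (orderOf_eq_one_iff.1 h))
    have : Fact p.Prime := ⟨hp⟩
    obtain ⟨k, hk⟩ := hpd
    have hk0 : k ≠ 0 := by
      rintro rfl
      rw [mul_zero] at hk
      exact (orderOf_pos g).ne' hk
    set u := g ^ k with hu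
    have hup : orderOf u = p := by
      rw [hu, orderOf_pow_of_dvd hk0 ⟨p, by rw [hk, mul_comm]⟩, hk, Nat.mul_div_cancel _ (Nat.pos_of_ne_zero hk0)]
    have huF : u ∈ Cfsg.fittingSubgroup D := pow_mem hg k
    have hu1 : u ≠ 1 := by
      intro h
      rw [h, orderOf_one] at hup
      exact hp.one_lt.ne hup
    have hua : u • a = a := by
      have h1 : Subgroup.zpowers g ≤ MulAction.stabilizer D a := by rw [Subgroup.zpowers_le]; exact ha
      exact h1 (Subgroup.npow_mem_zpowers g k)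
    refine (trans_pCore hodd hq hE htrans p).2 u ?_ hu1 a hua
    have hpg : IsPGroup p (Subgroup.zpowers (⟨u, huF⟩ : Cfsg.fittingSubgroup D)) := by
      apply IsPGroup.of_card (n := 1)
      rw [Nat.card_zpowers, ← Subgroup.orderOf_coe, pow_one]
      exact hup
    obtain ⟨P, hP⟩ := hpg.exists_le_sylow
    exact sylow_fitting_le P ⟨⟨u, huF⟩, hP (Subgroup.mem_zpowers _), rfl⟩

end trans

end Cfsg.Agent.H20
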