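import Mathlib

/-! Invariant complements under coprime action on an abelian group. -/

set_option autoImplicit false

namespace Cfsg.Agent.H20

/-- conjugation on a normalised subgroup -/
def conjOn {G : Type*} [Group G] (V : Subgroup G) (a : G) (ha : a ∈ Subgroup.normalizer (V : Set G)) : V →* V where
  toFun v := ⟨a * v * a⁻¹, (Subgroup.mem_normalizer_iff.1 ha v).1 v.2⟩
  map_one' := Subtype.ext (by simp)
  map_mul' x y := Subtype.ext (by simp)

theorem exists_proj {V : Type*} [CommGroup V] (U W : Subgroup V) (h1 : U ⊓ W = ⊥) (h2 : U ⊔ W = ⊤) :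
    ∃ π : V →* V, (∀ v, π v ∈ U) ∧ (∀ u ∈ U, π u = u) ∧ (∀ w ∈ W, π w = 1) := by
  have hex : ∀ v : V, ∃ u ∈ U, ∃ w ∈ W, u * w = v := by
    intro v
    have : v ∈ U ⊔ W := by rw [h2]; exact Subgroup.mem_top v
    exact Subgroup.mem_sup.1 this
  choose u hu w hw huw using hex
  have huniq : ∀ a ∈ U, ∀ b ∈ W, ∀ a' ∈ U, ∀ b' ∈ W, a * b = a' * b' → a = a' := by
    intro a ha b hb a' ha' b' hb' h
    have h3 : a'⁻¹ * a = b' * b⁻¹ := by
      rw [inv_mul_eq_iff_eq_mul, ← mul_assoc, eq_mul_inv_iff_mul_eq, h]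
    have h4 : a'⁻¹ * a ∈ U ⊓ W := Subgroup.mem_inf.2 ⟨U.mul_mem (U.inv_mem ha') ha, by
      rw [h3]; exact W.mul_mem hb' (W.inv_mem hb)⟩
    rw [h1, Subgroup.mem_bot] at h4
    exact (inv_mul_eq_one.1 h4).symm
  refine ⟨{ toFun := u, map_one' := ?_, map_mul' := ?_ }, hu, ?_, ?_⟩
  · exact huniq (u 1) (hu 1) (w 1) (hw 1) 1 (one_mem _) 1 (one_mem _) (by rw [huw, mul_one])
  · intro x y
    refine huniq (u (x * y)) (hu _) (w (x * y)) (hw _) (u x * u y) (mul_mem (hu x) (hu y)) (w x * w y)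
      (mul_mem (hw x) (hw y)) ?_
    rw [huw, mul_mul_mul_comm, huw, huw]
  · intro a ha
    exact huniq (u a) (hu a) (w a) (hw a) a ha 1 (one_mem _) (by rw [huw, mul_one])
  · intro b hb
    exact huniq (u b) (hu b) (w b) (hw b) 1 (one_mem _) b hb (by rw [huw, one_mul])

theorem exists_inv_compl {G : Type*} [Group G] [Finite G] (V A U : Subgroup G) (hVab : IsMulCommutative V)
    (hAV : A ≤ Subgroup.normalizer (V : Set G)) (hcop : (Nat.card A).Coprime (Nat.card V)) (hUV : U ≤ V)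
    (hAU : A ≤ Subgroup.normalizer (U : Set G)) (W : Subgroup G) (hWV : W ≤ V) (hUW : U ⊓ W = ⊥)
    (hUWV : U ⊔ W = V) :
    ∃ W' : Subgroup G, W' ≤ V ∧ A ≤ Subgroup.normalizer (W' : Set G) ∧ U ⊓ W' = ⊥ ∧ U ⊔ W' = V := by
  classical
  letI : Fintype A := Fintype.ofFinite A
  letI : CommGroup V := { (inferInstance : Group V) with mul_comm := fun a b => hVab.is_comm.comm a b }
  obtain ⟨π, hπU, hπu, -⟩ := exists_proj (U.subgroupOf V) (W.subgroupOf V)
    (by
      change (U.comap V.subtype) ⊓ (W.comap V.subtype) = ⊥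
      rw [← Subgroup.comap_inf, hUW]
      exact Subgroup.bot_subgroupOf V)
    (by rw [← Subgroup.subgroupOf_sup hUV hWV, hUWV, Subgroup.subgroupOf_self])
  have hinv : ∀ a : A, (a : G)⁻¹ ∈ Subgroup.normalizer (V : Set G) := fun a => inv_mem (hAV a.2)
  let ρ : V →* V := ∏ a : A, (conjOn V a (hAV a.2)).comp (π.comp (conjOn V (a : G)⁻¹ (hinv a)))
  have hρ : ∀ v : V, ρ v = ∏ a : A, conjOn V a (hAV a.2) (π (conjOn V (a : G)⁻¹ (hinv a) v)) := by
    intro v
    simp only [ρ, MonoidHom.finset_prod_apply, MonoidHom.comp_apply]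
  -- values in U
  have hρU : ∀ v : V, ρ v ∈ U.subgroupOf V := by
    intro v
    rw [hρ]
    apply Subgroup.prod_mem
    intro a _
    have h1 := hπU (conjOn V (a : G)⁻¹ (hinv a) v)
    rw [Subgroup.mem_subgroupOf] at h1 ⊢
    exact (Subgroup.mem_normalizer_iff.1 (hAU a.2) _).1 h1
  have hρu : ∀ u ∈ U.subgroupOf V, ρ u = u ^ Nat.card A := by
    intro u hu
    rw [hρ, Finset.prod_congr rfl (g := fun _ => u), Finset.prod_const, Finset.card_univ, Nat.card_eq_fintype_card]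
    intro a _
    rw [hπu]
    · apply Subtype.ext
      simp only [conjOn, MonoidHom.coe_mk, OneHom.coe_mk]
      group
    · rw [Subgroup.mem_subgroupOf] at hu ⊢
      exact (Subgroup.mem_normalizer_iff.1 (inv_mem (hAU a.2)) _).1 hu
  -- equivariance
  have hρe : ∀ (b : A) (v : V), ρ (conjOn V b (hAV b.2) v) = conjOn V b (hAV b.2) (ρ v) := by
    intro b v
    rw [hρ, hρ, map_prod]
    refine Fintype.prod_equiv (Equiv.mulLeft b⁻¹) _ _ (fun a => ?_)
    have e1 : conjOn V (a : G)⁻¹ (hinv a) (conjOn V b (hAV b.2) v) =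
        conjOn V ((b⁻¹ * a : A) : G)⁻¹ (hinv _) v := by
      apply Subtype.ext
      simp only [conjOn, MonoidHom.coe_mk, OneHom.coe_mk, Subgroup.coe_mul, InvMemClass.coe_inv]
      group
    rw [e1]
    apply Subtype.ext
    simp only [conjOn, MonoidHom.coe_mk, OneHom.coe_mk, Equiv.coe_mulLeft, Subgroup.coe_mul, InvMemClass.coe_inv]
    group
  have hcopU : (Nat.card V).Coprime (Nat.card A) := hcop.symm
  refine ⟨ρ.ker.map V.subtype, Subgroup.map_subtype_le _, ?_, ?_, ?_⟩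
  · have key : ∀ b ∈ A, ∀ x ∈ ρ.ker.map V.subtype, b * x * b⁻¹ ∈ ρ.ker.map V.subtype := by
      rintro b hb _ ⟨v, hv, rfl⟩
      refine ⟨conjOn V b (hAV hb) v, ?_, rfl⟩
      rw [SetLike.mem_coe, MonoidHom.mem_ker] at hv ⊢
      rw [hρe ⟨b, hb⟩ v, hv, map_one]
    intro b hb
    rw [Subgroup.mem_normalizer_iff]
    intro x
    refine ⟨key b hb x, fun h => ?_⟩
    have := key b⁻¹ (inv_mem hb) _ h
    convert this using 1
    group
  · rw [Subgroup.eq_bot_iff_forall]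
    rintro x ⟨hxU, v, hv, rfl⟩
    rw [SetLike.mem_coe, MonoidHom.mem_ker] at hv
    have h1 : v ∈ U.subgroupOf V := hxU
    rw [hρu v h1] at hv
    have h2 : orderOf v ∣ Nat.card A := orderOf_dvd_of_pow_eq_one hv
    have h3 : orderOf v ∣ Nat.card V := orderOf_dvd_natCard v
    have h4 := Nat.dvd_gcd h2 h3
    rw [hcop] at h4
    rw [orderOf_eq_one_iff.1 (Nat.dvd_one.1 h4)]
    rfl
  · apply le_antisymm
    · exact sup_le hUV (Subgroup.map_subtype_le _)
    · intro v hv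
      -- root of ρ v
      obtain ⟨k, hk⟩ : ∃ k : V, k ∈ U.subgroupOf V ∧ k ^ Nat.card A = ρ ⟨v, hv⟩ := by
        have hc : (Nat.card (U.subgroupOf V)).Coprime (Nat.card A) :=
          Nat.Coprime.coprime_dvd_left (Subgroup.card_subgroup_dvd_card _) hcopU
        obtain ⟨k, hk⟩ := (powCoprime hc).surjective ⟨ρ ⟨v, hv⟩, hρU _⟩
        exact ⟨k, k.2, congrArg Subtype.val hk⟩
      have h1 : ρ (k⁻¹ * ⟨v, hv⟩) = 1 := by
        rw [map_mul, map_inv, hρu k hk.1, hk.2, inv_mul_cancel]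
      have e : v = (k : G) * (((k⁻¹ * ⟨v, hv⟩ : V)) : G) := by
        simp
      rw [e]
      exact mul_mem (Subgroup.mem_sup_left hk.1) (Subgroup.mem_sup_right ⟨_, h1, rfl⟩)

end Cfsg.Agent.H20
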