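import Cfsg.Agent.H20.DihQuat
import Cfsg.Agent.OrthCount.Orders
import Cfsg.Agent.Frob.Action

/-! Two-dimensional orthogonal groups are dihedral. -/

set_option autoImplicit false

namespace Cfsg.Agent.H20

open Cfsg.Agent.OrthCount

section iso

variable {F : Type*} [Field F] {ι : Type} [Fintype ι] [DecidableEq ι] {V : Type*} [AddCommGroup V] [Module F V]

/-- isometries of a function -/
def OGf (q : V → F) : Subgroup (V ≃ₗ[F] V) where
  carrier := {g | ∀ v, q (g v) = q v}
  mul_mem' := fun {a b} ha hb v => by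
    rw [LinearEquiv.mul_apply]; exact (ha _).trans (hb _)
  one_mem' := fun v => rfl
  inv_mem' := fun {a} ha v => by
    have := ha (a⁻¹ v)
    rw [← this]
    congr 1
    rw [← LinearEquiv.mul_apply, mul_inv_cancel]; rfl

theorem mem_OGf {q : V → F} {g : V ≃ₗ[F] V} : g ∈ OGf q ↔ ∀ v, q (g v) = q v := Iff.rfl

/-- matrices as linear equivalences -/
noncomputable def glLin : Matrix.GeneralLinearGroup ι F ≃* ((ι → F) ≃ₗ[F] (ι → F)) :=
  Matrix.GeneralLinearGroup.toLin.trans (LinearMap.GeneralLinearGroup.generalLinearEquiv F (ι → F))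

theorem glLin_apply (g : Matrix.GeneralLinearGroup ι F) (v : ι → F) :
    glLin g v = (g : Matrix ι ι F).mulVec v := rfl

/-- the isometry group as a group of linear equivalences of another space -/
noncomputable def isoOGf (e : (ι → F) ≃ₗ[F] V) (Q : (ι → F) → F) (q : V → F) (h : ∀ v, Q v = q (e v)) :
    Cfsg.isometryGroup F Q ≃* OGf q where
  toFun g := ⟨(e.symm.trans (glLin (g : Matrix.GeneralLinearGroup ι F))).trans e, fun v => by
    rw [LinearEquiv.trans_apply, LinearEquiv.trans_apply, ← h, glLin_apply]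
    have h1 := g.2 (e.symm v) (e.symm v)
    have h2 : Q (((g : Matrix.GeneralLinearGroup ι F) : Matrix ι ι F).mulVec (e.symm v)) = Q (e.symm v) := h1
    rw [h2, h, e.apply_symm_apply]⟩
  invFun k := ⟨glLin.symm ((e.trans (k : V ≃ₗ[F] V)).trans e.symm), fun u v => by
    change Q (((glLin.symm ((e.trans (k : V ≃ₗ[F] V)).trans e.symm) : Matrix.GeneralLinearGroup ι F) :
      Matrix ι ι F).mulVec u) = Q u
    rw [← glLin_apply, MulEquiv.apply_symm_apply, LinearEquiv.trans_apply, LinearEquiv.trans_apply, h,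
      e.apply_symm_apply, k.2, h]⟩
  left_inv g := by
    apply Subtype.ext
    simp only
    rw [MulEquiv.symm_apply_eq]
    apply LinearEquiv.ext
    intro v
    simp
  right_inv k := by
    apply Subtype.ext
    simp only [MulEquiv.apply_symm_apply]
    apply LinearEquiv.ext
    intro v
    simp
  map_mul' g k := by
    apply Subtype.ext
    simp only [Subgroup.coe_mul, map_mul]
    apply LinearEquiv.ext
    intro v
    simp [LinearEquiv.mul_apply]

end iso

theorem dihedral_of_iso {G H : Type*} [Group G] [Group H] {N : ℕ} [NeZero N] (e : G ≃* H) {x s : H}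
    (hx : orderOf x = N) (hs : s * s = 1) (hsx : s * x * s⁻¹ = x⁻¹) (hsn : s ∉ Subgroup.zpowers x)
    (hcard : Nat.card G = 2 * N) : Nonempty (G ≃* DihedralGroup N) := by
  obtain ⟨ε⟩ := dihedral_equiv (⊤ : Subgroup H) hx hs hsx hsn (Subgroup.mem_top _) (Subgroup.mem_top _)
    (by rw [Subgroup.card_top, ← Nat.card_congr e.toEquiv, hcard])
  exact ⟨(e.trans Subgroup.topEquiv.symm).trans ε⟩

section plus

variable {F : Type*} [Field F] [Fintype F]

/-- the hyperbolic plane -/
def planeEquiv : (Fin 1 ⊕ Fin 1 → F) ≃ₗ[F] F × F where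
  toFun v := (v (.inl 0), v (.inr 0))
  map_add' _ _ := rfl
  map_smul' _ _ := rfl
  invFun p := Sum.elim (fun _ => p.1) (fun _ => p.2)
  left_inv v := by
    ext i
    rcases i with i | i
    · have : i = 0 := Subsingleton.elim _ _
      rw [this]; rfl
    · have : i = 0 := Subsingleton.elim _ _
      rw [this]; rfl
  right_inv _ := rfl

/-- the diagonal isometry -/
def diagE (c : Fˣ) : (F × F) ≃ₗ[F] F × F where
  toFun p := ((c : F) * p.1, ((c⁻¹ : Fˣ) : F) * p.2)
  map_add' _ _ := by ext <;> simp [mul_add]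
  map_smul' _ _ := by ext <;> simp <;> ring
  invFun p := (((c⁻¹ : Fˣ) : F) * p.1, (c : F) * p.2)
  left_inv p := by ext <;> simp
  right_inv p := by ext <;> simp

/-- the swap -/
def swapE : (F × F) ≃ₗ[F] F × F where
  toFun p := (p.2, p.1)
  map_add' _ _ := rfl
  map_smul' _ _ := rfl
  invFun p := (p.2, p.1)
  left_inv p := rfl
  right_inv p := rfl

theorem plus_dihedral : Nonempty (Cfsg.isometryGroup F (Cfsg.quadFormPlus 1 F) ≃* DihedralGroup (Fintype.card F - 1)) := by
  classical
  have hq : 1 < Fintype.card F := Fintype.one_lt_card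
  have : NeZero (Fintype.card F - 1) := ⟨by omega⟩
  let q : F × F → F := fun p => p.1 * p.2
  let e := isoOGf (planeEquiv (F := F)) (Cfsg.quadFormPlus 1 F) q (fun v => by
    simp only [Cfsg.quadFormPlus, Finset.univ_unique, Finset.sum_singleton]
    rfl)
  let D : Fˣ →* OGf q :=
    { toFun := fun c => ⟨diagE c, fun v => by
        change ((c : F) * v.1) * (((c⁻¹ : Fˣ) : F) * v.2) = v.1 * v.2
        rw [mul_mul_mul_comm, ← Units.val_mul, mul_inv_cancel, Units.val_one, one_mul]⟩
      map_one' := by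
        apply Subtype.ext
        apply LinearEquiv.ext
        intro v
        simp [diagE]
      map_mul' := by
        intro a b
        apply Subtype.ext
        apply LinearEquiv.ext
        intro v
        simp only [Subgroup.coe_mul, LinearEquiv.mul_apply]
        simp only [diagE, LinearEquiv.coe_mk, LinearMap.coe_mk, AddHom.coe_mk, Units.val_mul, mul_inv]
        ext <;> simp [mul_assoc] }
  have hD : Function.Injective D := by
    intro a b hab
    have h1 := congrArg (fun g : OGf q => (g : (F × F) ≃ₗ[F] F × F) (1, 1)) hab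
    have h2 : (a : F) * 1 = (b : F) * 1 := congrArg Prod.fst h1
    rw [mul_one, mul_one] at h2
    exact Units.ext h2
  obtain ⟨γ, hγ⟩ := IsCyclic.exists_ofOrder_eq_natCard (α := Fˣ)
  let s : OGf q := ⟨swapE, fun v => mul_comm _ _⟩
  refine dihedral_of_iso e (x := D γ) (s := s) ?_ ?_ ?_ ?_ ?_
  · rw [orderOf_injective D hD, hγ, Nat.card_eq_fintype_card, Fintype.card_units]
  · rfl
  · have hs : s⁻¹ = s := rfl
    rw [hs, ← map_inv]
    apply Subtype.ext
    apply LinearEquiv.ext
    intro v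
    simp only [Subgroup.coe_mul, LinearEquiv.mul_apply]
    change ((((γ⁻¹ : Fˣ) : F)) * v.1, (γ : F) * v.2) = ((((γ⁻¹ : Fˣ) : F)) * v.1, (((γ⁻¹)⁻¹ : Fˣ) : F) * v.2)
    rw [inv_inv]
  · rintro ⟨n, hn⟩
    simp only at hn
    rw [← map_zpow] at hn
    have h1 := congrArg (fun g : OGf q => (g : (F × F) ≃ₗ[F] F × F) (1, 0)) hn
    have h2 : (((γ ^ n)⁻¹ : Fˣ) : F) * 0 = 1 := congrArg Prod.snd h1
    rw [mul_zero] at h2
    exact zero_ne_one h2
  · have h1 := order_plus (F := F) 1 le_rfl
    rw [h1]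
    simp

end plus

section minus

variable {F : Type*} [Field F] [Finite F] {a b : F} (hab : ∀ z : F × F, bin a b z = 0 → z = 0)

theorem mulLin_comm (a b : F) (u v z : F × F) : mulLin a b u (mulLin a b v z) = mulLin a b v (mulLin a b u z) := by
  simp only [mulLin_apply]; ext <;> simp <;> ring

theorem mulLin_mulLin (a b : F) (u v z : F × F) : mulLin a b (mulLin a b u v) z = mulLin a b u (mulLin a b v z) := by
  simp only [mulLin_apply]; ext <;> simp <;> ring

/-- rotations -/
def rotC (a b : F) : Subgroup (OG (bin a b)) where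
  carrier := {g | ∃ u, bin a b u = 1 ∧ ∀ z, (g : (F × F) ≃ₗ[F] (F × F)) z = mulLin a b u z}
  mul_mem' := by
    rintro g k ⟨u, hu, hg⟩ ⟨v, hv, hk⟩
    refine ⟨mulLin a b u v, by rw [bin_mulLin, hu, hv, one_mul], fun z => ?_⟩
    rw [Subgroup.coe_mul, LinearEquiv.mul_apply, hk, hg, mulLin_mulLin]
  one_mem' := ⟨(1, 0), by rw [bin_apply]; simp, fun z => by simp [mulLin_apply]⟩
  inv_mem' := by
    rintro g ⟨u, hu, hg⟩
    refine ⟨conjv a u, by rw [bin_conjv, hu], fun z => ?_⟩
    have h1 : (g : (F × F) ≃ₗ[F] (F × F)) (mulLin a b (conjv a u) z) = z := by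
      rw [hg, mulLin_mulLin_conjv, hu, one_smul]
    have h2 : ((g⁻¹ : OG (bin a b)) : (F × F) ≃ₗ[F] (F × F)) ((g : (F × F) ≃ₗ[F] (F × F)) (mulLin a b (conjv a u) z)) =
        mulLin a b (conjv a u) z := by
      rw [← LinearEquiv.mul_apply, ← Subgroup.coe_mul, inv_mul_cancel]; rfl
    rw [h1] at h2
    exact h2

include hab

theorem card_rotC : Nat.card (rotC a b) = Nat.card F + 1 := by
  rw [← card_norm_one hab]
  refine Nat.card_congr
    { toFun := fun g => ⟨((g : OG (bin a b)) : (F × F) ≃ₗ[F] (F × F)) (1, 0), ?_⟩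
      invFun := fun u => ⟨⟨mulEquiv a b u.1 u.2, mulEquiv_mem a b u.1 u.2⟩, ⟨u.1, u.2, fun z => rfl⟩⟩
      left_inv := ?_
      right_inv := fun u => Subtype.ext (mulEquiv_one a b u.1 u.2) }
  · rw [mem_OG.mp (g : OG (bin a b)).2, bin_apply]; simp
  · rintro ⟨g, u, hu, hg⟩
    apply Subtype.ext
    apply Subtype.ext
    apply LinearEquiv.ext
    intro z
    have h1 : (g : (F × F) ≃ₗ[F] (F × F)) (1, 0) = u := by
      rw [hg, mulLin_apply]; ext <;> simp
    change mulLin a b ((g : (F × F) ≃ₗ[F] (F × F)) (1, 0)) z = _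
    rw [h1, hg]

theorem rotC_fpf {g : OG (bin a b)} (hg : g ∈ rotC a b) (hg1 : g ≠ 1) {z : F × F}
    (hz : (g : (F × F) ≃ₗ[F] (F × F)) z = z) : z = 0 := by
  obtain ⟨u, hu, hgu⟩ := hg
  have h1 : mulLin a b (u - (1, 0)) z = 0 := by
    have h2 : mulLin a b (u - (1, 0)) z = mulLin a b u z - z := by
      simp only [mulLin_apply]; ext <;> simp <;> ring
    rw [h2, ← hgu, hz, sub_self]
  have h2 : bin a b (u - (1, 0)) * bin a b z = 0 := by
    rw [← bin_mulLin, h1, bin_apply]; simp
  rcases mul_eq_zero.1 h2 with h3 | h3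
  · exfalso
    apply hg1
    have h4 := sub_eq_zero.1 (hab _ h3)
    apply Subtype.ext
    apply LinearEquiv.ext
    intro w
    rw [hgu, h4, mulLin_apply]
    ext <;> simp
  · exact hab _ h3

theorem rotC_cyclic : IsCyclic (rotC a b) := by
  letI : CommGroup (rotC a b) :=
    { (inferInstance : Group (rotC a b)) with
      mul_comm := by
        rintro ⟨g, u, hu, hg⟩ ⟨k, v, hv, hk⟩
        apply Subtype.ext
        apply Subtype.ext
        apply LinearEquiv.ext
        intro z
        change (g : (F × F) ≃ₗ[F] (F × F)) ((k : (F × F) ≃ₗ[F] (F × F)) z) =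
          (k : (F × F) ≃ₗ[F] (F × F)) ((g : (F × F) ≃ₗ[F] (F × F)) z)
        rw [hk, hg, hg, hk, mulLin_comm] }
  have hfin : Finite (rotC a b) := Nat.finite_of_card_ne_zero (by rw [card_rotC hab]; omega)
  let φ : rotC a b →* MulAut (Multiplicative (F × F)) :=
    { toFun := fun g => AddEquiv.toMultiplicative ((g : OG (bin a b)) : (F × F) ≃ₗ[F] (F × F)).toAddEquiv
      map_one' := by ext v <;> rfl
      map_mul' := by intro x y; ext v <;> rfl }
  have hφ : Cfsg.Agent.Frob.IsFPF φ := by
    intro g hg w hw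
    have h1 := rotC_fpf hab g.2 (fun h => hg (Subtype.ext h)) (z := Multiplicative.toAdd w) hw
    exact h1
  exact hφ.isCyclic_of_comm

theorem minus_dihedral : Nonempty (OG (bin a b) ≃* DihedralGroup (Nat.card F + 1)) := by
  have hfin : Finite (rotC a b) := Nat.finite_of_card_ne_zero (by rw [card_rotC hab]; omega)
  obtain ⟨x, hx⟩ := (rotC_cyclic hab).exists_ofOrder_eq_natCard
  let s : OG (bin a b) := ⟨conjEquiv a, conjEquiv_mem a b⟩
  refine dihedral_of_iso (MulEquiv.refl _) (x := (x : OG (bin a b))) (s := s) ?_ ?_ ?_ ?_ (card_OG_bin hab)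
  · rw [Subgroup.orderOf_coe, hx, card_rotC hab]
  · apply Subtype.ext
    apply LinearEquiv.ext
    intro z
    change conjv a (conjv a z) = z
    ext <;> simp [conjv]
  · obtain ⟨x, u, hu, hxu⟩ := x
    have hs : s⁻¹ = s := rfl
    rw [hs]
    apply eq_inv_of_mul_eq_one_left
    apply Subtype.ext
    apply LinearEquiv.ext
    intro z
    change conjv a ((x : (F × F) ≃ₗ[F] (F × F)) (conjv a ((x : (F × F) ≃ₗ[F] (F × F)) z))) = z
    rw [hxu, hxu]
    have h1 : conjv a (mulLin a b u (conjv a (mulLin a b u z))) = mulLin a b (conjv a u) (mulLin a b u z) := by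
      simp only [mulLin_apply, conjv]; ext <;> simp <;> ring
    rw [h1, mulLin_conjv_mulLin, hu, one_smul]
  · intro h
    have hsC : s ∈ rotC a b := by
      have : Subgroup.zpowers (x : OG (bin a b)) ≤ rotC a b := by
        rw [Subgroup.zpowers_le]; exact x.2
      exact this h
    have hs1 : s ≠ 1 := fun h1 => conj_ne_one hab (congrArg Subtype.val h1)
    have h2 : (s : (F × F) ≃ₗ[F] (F × F)) (1, 0) = (1, 0) := by
      change conjv a (1, 0) = (1, 0)
      simp [conjv]
    have h3 := rotC_fpf hab hsC hs1 h2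
    simp at h3

end minus

theorem minus_dihedral' {F : Type*} [Field F] [Fintype F] (a b : F)
    (hab : ∀ z₁ z₂ : F, z₁ ^ 2 + a * z₁ * z₂ + b * z₂ ^ 2 = 0 → z₁ = 0 ∧ z₂ = 0) :
    Nonempty (Cfsg.isometryGroup F (Cfsg.quadFormMinus 0 F a b) ≃* DihedralGroup (Fintype.card F + 1)) := by
  obtain ⟨ε⟩ := minus_dihedral (aniso_of hab)
  rw [Nat.card_eq_fintype_card] at ε
  let e₀ : ((Fin 0 ⊕ Fin 0) ⊕ Fin 2 → F) ≃ₗ[F] F × F := (minusEquiv 0).trans zeroEquiv
  let e := isoOGf e₀ (Cfsg.quadFormMinus 0 F a b) (bin a b) (fun v => by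
    rw [bin_apply]
    simp only [Cfsg.quadFormMinus, Finset.univ_eq_empty, Finset.sum_empty, zero_add]
    rfl)
  have h : OGf (fun z => bin a b z) = OG (bin a b) := rfl
  exact ⟨e.trans ((MulEquiv.subgroupCongr h).trans ε)⟩

end Cfsg.Agent.H20
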