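import Mathlib.GroupTheory.Transfer
import Mathlib.GroupTheory.Abelianization.Defs
import Mathlib.LinearAlgebra.FreeModule.Finite.CardQuotient
import Mathlib.LinearAlgebra.FreeModule.Finite.Quotient
import Mathlib.Algebra.MonoidAlgebra.Basic
import Mathlib.RingTheory.Ideal.Operations
import Mathlib.LinearAlgebra.Matrix.Adjugate
import Mathlib.LinearAlgebra.Matrix.Basis

set_option autoImplicit false

/-! The principal ideal theorem in group-theoretic form. -/

namespace Cfsg.Agent.H20.PIT

open Finset MonoidAlgebra

variable {Q : Type*} [CommGroup Q]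

/-- augmentation -/
noncomputable def aug (Q : Type*) [CommGroup Q] : MonoidAlgebra ℤ Q →+* ℤ :=
  (MonoidAlgebra.lift ℤ ℤ Q (1 : Q →* ℤ)).toRingHom

theorem aug_single (q : Q) (n : ℤ) : aug Q (single q n) = n := by
  have h := MonoidAlgebra.lift_single (R := ℤ) (A := ℤ) (M := Q) (1 : Q →* ℤ) q n
  change (MonoidAlgebra.lift ℤ ℤ Q (1 : Q →* ℤ)) (single q n) = n
  rw [h]; simp

theorem invariant_eq [Fintype Q] (x : MonoidAlgebra ℤ Q)
    (hx : ∀ q : Q, x * (single q 1 - 1) = 0) :
    x = (x.coeff 1) • ∑ q : Q, single q (1 : ℤ) := by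
  classical
  have h1 : ∀ q r : Q, x.coeff (r * q⁻¹) = x.coeff r := by
    intro q r
    have h := hx q
    rw [mul_sub, mul_one, sub_eq_zero] at h
    have h2 := congrArg (fun y : MonoidAlgebra ℤ Q => y.coeff r) h
    rw [MonoidAlgebra.coeff_mul_single_apply] at h2
    simpa using h2
  apply MonoidAlgebra.coeff_injective
  ext r
  have h2 := h1 r r
  rw [mul_inv_cancel] at h2
  rw [MonoidAlgebra.coeff_smul, MonoidAlgebra.coeff_sum]
  simp only [MonoidAlgebra.coeff_single, Finsupp.smul_apply, Finsupp.finset_sum_apply,
    Finsupp.single_apply, Finset.sum_ite_eq', Finset.mem_univ, if_true, smul_eq_mul, mul_one]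
  exact h2.symm

/-- determinant trick -/
theorem det_smul_eq_zero {R ι B : Type*} [CommRing R] [Fintype ι] [DecidableEq ι]
    [AddCommGroup B] [Module R B] (μ : Matrix ι ι R) (v : ι → B)
    (h : ∀ i, ∑ j, μ i j • v j = 0) (k : ι) : μ.det • v k = 0 := by
  have h1 : ∑ i, μ.adjugate k i • (∑ j, μ i j • v j) = 0 := by
    apply Finset.sum_eq_zero; intro i _; rw [h i, smul_zero]
  have h2 : ∑ i, μ.adjugate k i • (∑ j, μ i j • v j) = ∑ j, (μ.adjugate * μ) k j • v j := by
    simp_rw [Finset.smul_sum, smul_smul]
    rw [Finset.sum_comm]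
    apply Finset.sum_congr rfl
    intro j _
    rw [← Finset.sum_smul]
    rfl
  rw [h1, Matrix.adjugate_mul] at h2
  simp only [Matrix.smul_apply, Matrix.one_apply, smul_eq_mul, mul_ite, mul_one, mul_zero,
    ite_smul, zero_smul, Finset.sum_ite_eq, Finset.mem_univ, if_true] at h2
  exact h2.symm

/-- basis of a full rank submodule indexed by the same set, with determinant `±` the index -/
theorem exists_basis_det {ι : Type*} [Fintype ι] [DecidableEq ι]
    (N : Submodule ℤ (ι → ℤ)) [Finite ((ι → ℤ) ⧸ N)] :
    ∃ m : ι → ι → ℤ, (∀ i, m i ∈ N) ∧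
      (Matrix.det (Matrix.of m)).natAbs = Nat.card ((ι → ℤ) ⧸ N) := by
  have h := (Submodule.finiteQuotient_iff N).mp inferInstance
  let bN := Submodule.smithNormalFormBotBasis (Pi.basisFun ℤ ι) h
  refine ⟨fun i => (bN i : ι → ℤ), fun i => (bN i).2, ?_⟩
  have h2 := Submodule.natAbs_det_basis_change (Pi.basisFun ℤ ι) N bN
  rw [← h2, Pi.basisFun_det]
  rfl

theorem core {G : Type*} [Group G] [Finite G] {V : Type*} [AddCommGroup V]
    [Module (MonoidAlgebra ℤ (Abelianization G)) V] (f : G → V) [Fintype (Abelianization G)]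
    (hf : ∀ g h, f (g * h) = f g + (single (Abelianization.of g) (1 : ℤ)) • f h) (g₀ : G) :
    (∑ q : Abelianization G, single q (1 : ℤ)) • f g₀ = 0 := by
  classical
  have _ := Fintype.ofFinite G
  set R := MonoidAlgebra ℤ (Abelianization G) with hR
  let e : G → V × R := fun g => (f g, single (Abelianization.of g) 1 - 1)
  have he : ∀ g h, e (g * h) = e g + (single (Abelianization.of g) (1 : ℤ) : R) • e h := by
    intro g h
    refine Prod.ext (hf g h) ?_
    change (single (Abelianization.of (g * h)) 1 - 1 : R) =
      (single (Abelianization.of g) 1 - 1) + single (Abelianization.of g) 1 •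
        (single (Abelianization.of h) 1 - 1)
    rw [smul_eq_mul, mul_sub, MonoidAlgebra.single_mul_single, map_mul]
    simp
  let I : Ideal R := RingHom.ker (aug (Abelianization G))
  let J : Submodule R (V × R) := I • Submodule.span R (Set.range e)
  have hJ : ∀ g h, e (g * h) - e g - e h ∈ J := by
    intro g h
    have h1 : e (g * h) - e g - e h = (single (Abelianization.of g) (1 : ℤ) - 1 : R) • e h := by
      rw [he, sub_smul, one_smul]; abel
    rw [h1]
    refine Submodule.smul_mem_smul ?_ (Submodule.subset_span ⟨h, rfl⟩)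
    rw [RingHom.mem_ker, map_sub, aug_single, map_one, sub_self]
  let φ : G →* Multiplicative ((V × R) ⧸ J) :=
    MonoidHom.mk' (fun g => Multiplicative.ofAdd (J.mkQ (e g))) (by
      intro g h
      rw [← ofAdd_add, ← map_add]
      congr 1
      rw [← sub_eq_zero, ← map_sub, Submodule.mkQ_apply, Submodule.Quotient.mk_eq_zero]
      have := hJ g h
      rwa [sub_sub] at this)
  let φ' : Abelianization G →* Multiplicative ((V × R) ⧸ J) := Abelianization.lift φ
  -- the relation lattice
  let P : (G → ℤ) →ₗ[ℤ] Additive (Abelianization G) :=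
    { toFun := fun m => ∑ g, m g • Additive.ofMul (Abelianization.of g)
      map_add' := by
        intro a b; simp only [Pi.add_apply, add_smul, Finset.sum_add_distrib]
      map_smul' := by
        intro a b; simp only [Pi.smul_apply, smul_eq_mul, mul_smul, Finset.smul_sum,
          RingHom.id_apply] }
  have hPs : Function.Surjective P := by
    intro q
    obtain ⟨g, hg⟩ := QuotientGroup.mk_surjective (s := commutator G) q.toMul
    refine ⟨Pi.single g 1, ?_⟩
    change ∑ g', (Pi.single g (1 : ℤ) : G → ℤ) g' • Additive.ofMul (Abelianization.of g') = q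
    rw [Finset.sum_eq_single g]
    · rw [Pi.single_eq_same, one_smul]
      change Additive.ofMul ((g : G ⧸ commutator G)) = q
      rw [hg]; rfl
    · intro b _ hb
      rw [Pi.single_eq_of_ne hb, zero_smul]
    · intro h; exact absurd (Finset.mem_univ g) h
  let N := LinearMap.ker P
  let eq1 : ((G → ℤ) ⧸ N) ≃ₗ[ℤ] Additive (Abelianization G) := P.quotKerEquivOfSurjective hPs
  have : Finite ((G → ℤ) ⧸ N) := Finite.of_equiv _ eq1.symm.toEquiv
  obtain ⟨m, hmN, hdet⟩ := exists_basis_det N
  have hcard : Nat.card ((G → ℤ) ⧸ N) = Fintype.card (Abelianization G) := by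
    rw [Nat.card_congr eq1.toEquiv, ← Nat.card_eq_fintype_card]
    rfl
  rw [hcard] at hdet
  have hrel : ∀ i : G, ∑ g, (m i g : R) • e g ∈ J := by
    intro i
    have h1 : P (m i) = 0 := hmN i
    rw [← Submodule.Quotient.mk_eq_zero J, ← Submodule.mkQ_apply, map_sum]
    have h2 : ∀ g, J.mkQ ((m i g : R) • e g) = m i g • (φ' (Abelianization.of g)).toAdd := by
      intro g
      rw [Int.cast_smul_eq_zsmul, map_zsmul]
      congr 1
    simp_rw [h2]
    have h3 : ∑ g, m i g • (φ' (Abelianization.of g)).toAdd =
        (MonoidHom.toAdditiveLeft φ') (P (m i)) := by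
      change _ = (MonoidHom.toAdditiveLeft φ')
        (∑ g, m i g • Additive.ofMul (Abelianization.of g))
      rw [map_sum]
      apply Finset.sum_congr rfl
      intro g _
      rw [map_zsmul]
      rfl
    rw [h3, h1, map_zero]
  have hrel2 : ∀ i : G, ∃ a : G → R, (∀ g, a g ∈ I) ∧ ∑ g, ((m i g : R) - a g) • e g = 0 := by
    intro i
    obtain ⟨a, ha, hsum⟩ := (Submodule.mem_ideal_smul_span_iff_exists_sum I e _).mp (hrel i)
    refine ⟨a, ha, ?_⟩
    simp_rw [sub_smul]
    rw [Finset.sum_sub_distrib, sub_eq_zero, ← hsum, Finsupp.sum_fintype]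
    intro i; rw [zero_smul]
  choose a haI hasum using hrel2
  let μ : Matrix G G R := Matrix.of fun i g => (m i g : R) - a i g
  have hμ : ∀ k, μ.det • e k = 0 := det_smul_eq_zero μ e (fun i => hasum i)
  have haug : aug (Abelianization G) μ.det = Matrix.det (Matrix.of m) := by
    rw [RingHom.map_det]
    congr 1
    ext i g
    change aug (Abelianization G) ((m i g : R) - a i g) = m i g
    rw [map_sub, map_intCast, (RingHom.mem_ker).mp (haI i g), sub_zero]
    rfl
  have hinv : ∀ q : Abelianization G, μ.det * (single q 1 - 1) = 0 := by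
    intro q
    obtain ⟨g, rfl⟩ := QuotientGroup.mk_surjective (s := commutator G) q
    exact congrArg Prod.snd (hμ g)
  have h5 := invariant_eq μ.det hinv
  set c := μ.det.coeff 1 with hc
  have h6 : c * Fintype.card (Abelianization G) = Matrix.det (Matrix.of m) := by
    rw [← haug, h5, map_zsmul, map_sum]
    simp only [aug_single, Finset.sum_const, Finset.card_univ, smul_eq_mul, nsmul_eq_mul, mul_one]
  have h7 : c.natAbs = 1 := by
    have h8 := congrArg Int.natAbs h6
    rw [Int.natAbs_mul, hdet, Int.natAbs_natCast] at h8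
    exact Nat.eq_of_mul_eq_mul_right (Fintype.card_pos) (by rw [h8, one_mul])
  have h9 : c • ((∑ q : Abelianization G, single q (1 : ℤ)) • f g₀) = 0 := by
    have h10 := congrArg Prod.fst (hμ g₀)
    change μ.det • f g₀ = 0 at h10
    rw [h5] at h10
    rw [← smul_assoc]
    exact h10
  rcases Int.natAbs_eq_natAbs_iff.mp (h7.trans Int.natAbs_one.symm) with h | h
  · rwa [h, one_smul] at h9
  · rw [h, neg_smul, one_smul, neg_eq_zero] at h9
    exact h9

section transfer

variable {G : Type*} [Group G] [Finite G]

/-- coset representatives -/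
noncomputable def rep (q : Abelianization G) : G :=
  ((default : (commutator G).LeftTransversal).2.leftQuotientEquiv q : G)

theorem mk_rep (q : Abelianization G) : Abelianization.of (rep q) = q :=
  (default : (commutator G).LeftTransversal).2.leftQuotientEquiv.symm_apply_apply q

theorem cmem (g : G) (q : Abelianization G) :
    (rep q)⁻¹ * g * rep ((Abelianization.of g)⁻¹ * q) ∈ commutator G := by
  rw [← Abelianization.ker_of, MonoidHom.mem_ker, map_mul, map_mul, map_inv, mk_rep, mk_rep]
  rw [← mul_assoc]
  simp [mul_comm, mul_assoc]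

/-- the crossed homomorphism -/
noncomputable def ff (g : G) (q : Abelianization G) : Additive (Abelianization ↥(commutator G)) :=
  Additive.ofMul (Abelianization.of ⟨_, cmem g q⟩)

theorem ff_mul (g h : G) (q : Abelianization G) :
    ff (g * h) q = ff g q + ff h ((Abelianization.of g)⁻¹ * q) := by
  unfold ff
  rw [← ofMul_mul, ← map_mul]
  congr 2
  ext
  simp only [Subgroup.coe_mul, map_mul, mul_inv_rev]
  have h1 : (Abelianization.of h)⁻¹ * ((Abelianization.of g)⁻¹ * q) =
    (Abelianization.of h)⁻¹ * (Abelianization.of g)⁻¹ * q := by rw [mul_assoc]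
  rw [h1]
  group

theorem transfer_eq [Fintype (Abelianization G)] (g : G) :
    MonoidHom.transfer (Abelianization.of : ↥(commutator G) →* Abelianization ↥(commutator G)) g =
      (∑ q, ff g q).toMul := by
  rw [MonoidHom.transfer_def _ (default : (commutator G).LeftTransversal), toMul_sum]
  unfold Subgroup.leftTransversals.diff
  refine Finset.prod_congr (Finset.ext fun x => iff_of_true (@Finset.mem_univ _ (_) x) (@Finset.mem_univ _ (_) x)) ?_
  intro q _
  unfold ff
  rw [toMul_ofMul]
  congr 1
  ext
  simp only
  rw [Subgroup.smul_apply_eq_smul_apply_inv_smul]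
  change _ * (g * _) = _
  rw [← mul_assoc]
  rfl

/-- the translation action of the group ring -/
noncomputable def act (Q V : Type*) [CommGroup Q] [AddCommGroup V] :
    Q →* Module.End ℤ (Q → V) where
  toFun r :=
    { toFun := fun F x => F (r⁻¹ * x)
      map_add' := fun _ _ => rfl
      map_smul' := fun _ _ => rfl }
  map_one' := by ext F x; simp
  map_mul' r s := by
    ext F x
    change F ((r * s)⁻¹ * x) = F (s⁻¹ * (r⁻¹ * x))
    rw [mul_inv, ← mul_assoc, mul_comm s⁻¹]

theorem transfer_trivial (g : G) :
    MonoidHom.transfer (Abelianization.of : ↥(commutator G) →* Abelianization ↥(commutator G)) g =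
      1 := by
  classical
  have : Finite (Abelianization G) := Quotient.finite _
  have _ := Fintype.ofFinite (Abelianization G)
  rw [transfer_eq]
  let V := Abelianization G → Additive (Abelianization ↥(commutator G))
  letI : Module (MonoidAlgebra ℤ (Abelianization G)) V :=
    Module.compHom V (MonoidAlgebra.lift ℤ (Module.End ℤ V) (Abelianization G)
      (act (Abelianization G) (Additive (Abelianization ↥(commutator G))))).toRingHom
  have hsm : ∀ (q : Abelianization G) (F : V) (x : Abelianization G),
      ((single q (1 : ℤ) : MonoidAlgebra ℤ (Abelianization G)) • F) x = F (q⁻¹ * x) := by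
    intro q F x
    change ((MonoidAlgebra.lift ℤ (Module.End ℤ V) (Abelianization G)
      (act (Abelianization G) (Additive (Abelianization ↥(commutator G))))) (single q 1)) F x = _
    rw [MonoidAlgebra.lift_single, one_smul]
    rfl
  have h := core (V := V) (f := ff) (by
    intro g h
    funext q
    rw [ff_mul, Pi.add_apply, hsm]) g
  rw [Finset.sum_smul] at h
  have h1 := congrFun h 1
  rw [Finset.sum_apply] at h1
  simp only [hsm, mul_one, Pi.zero_apply] at h1
  have h2 : ∑ q : Abelianization G, ff g q = ∑ q : Abelianization G, ff g q⁻¹ :=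
    (Equiv.sum_comp (Equiv.inv (Abelianization G)) (fun q => ff g q)).symm
  rw [h2, h1]
  rfl

end transfer

end Cfsg.Agent.H20.PIT
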