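import Mathlib

/-! Quadratic maps on a finite field of characteristic 2. -/

set_option autoImplicit false

namespace Cfsg.Agent.H20

section

variable {F : Type*} [Field F] [Finite F] [Fintype (F ≃+* F)]

theorem auto_indep (c : (F ≃+* F) → F) (h : ∀ x : F, ∑ σ, c σ * σ x = 0) : ∀ σ, c σ = 0 := by
  have h1 : LinearIndependent F (fun f : F →* F => (f : F → F)) := linearIndependent_monoidHom F F
  have h2 : LinearIndependent F (fun σ : F ≃+* F => (((σ : F →+* F) : F →* F) : F → F)) := by
    apply h1.comp (fun σ : F ≃+* F => ((σ : F →+* F) : F →* F))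
    intro σ τ hστ
    apply RingEquiv.ext
    intro x
    exact congrArg (fun f : F →* F => f x) hστ
  have h3 := (Fintype.linearIndependent_iff (R := F)).1 h2 c
  apply h3
  funext x
  rw [Finset.sum_apply]
  exact h x

theorem additive_expand (p : ℕ) [hp : Fact p.Prime] [CharP F p] (f : F → F) (hf : ∀ x y, f (x + y) = f x + f y) :
    ∃ c : (F ≃+* F) → F, ∀ x, f x = ∑ σ, c σ * σ x := by
  classical
  letI : Algebra (ZMod p) F := ZMod.algebra F p
  letI : Fintype (F ≃ₐ[ZMod p] F) := Fintype.ofFinite _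
  let fl : F →ₗ[ZMod p] F := (AddMonoidHom.mk' f hf).toZModLinearMap p
  let v : (F ≃ₐ[ZMod p] F) → (F →ₗ[ZMod p] F) := fun σ => (σ : F →ₐ[ZMod p] F).toLinearMap
  have hv : LinearIndependent F v := by
    have h1 := linearIndependent_toLinearMap (ZMod p) F F
    exact h1.comp (fun σ : F ≃ₐ[ZMod p] F => (σ : F →ₐ[ZMod p] F)) (fun σ τ h => by
      apply AlgEquiv.ext
      intro x
      exact congrArg (fun g : F →ₐ[ZMod p] F => g x) h)
  have hfin : FiniteDimensional (ZMod p) F := inferInstance
  have hcard : Fintype.card (F ≃ₐ[ZMod p] F) = Module.finrank F (F →ₗ[ZMod p] F) := by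
    rw [Module.finrank_linearMap_self, ← IsGalois.card_aut_eq_finrank, Nat.card_eq_fintype_card]
  have hspan : Submodule.span F (Set.range v) = ⊤ := hv.span_eq_top_of_card_eq_finrank' hcard
  have hmem : fl ∈ Submodule.span F (Set.range v) := by rw [hspan]; trivial
  rw [Submodule.mem_span_range_iff_exists_fun] at hmem
  obtain ⟨c, hc⟩ := hmem
  let e : (F ≃ₐ[ZMod p] F) ≃ (F ≃+* F) :=
    { toFun := fun σ => σ.toRingEquiv
      invFun := fun σ => AlgEquiv.ofRingEquiv (f := σ) (fun r => by
        have : ((σ : F →+* F).comp (algebraMap (ZMod p) F)) = algebraMap (ZMod p) F := RingHom.ext_zmod _ _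
        exact congrArg (fun g : ZMod p →+* F => g r) this)
      left_inv := fun σ => by ext; rfl
      right_inv := fun σ => by ext; rfl }
  refine ⟨fun σ => c (e.symm σ), fun x => ?_⟩
  have h1 : fl x = f x := rfl
  rw [← h1, ← hc, LinearMap.sum_apply]
  exact Fintype.sum_equiv e _ _ (fun σ => by
    change c σ * σ x = c (e.symm (e σ)) * (e σ) x
    rw [Equiv.symm_apply_apply]; rfl)

end

theorem quad_expand {F : Type*} [Field F] [Finite F] [CharP F 2] [Fintype (F ≃+* F)] (q : F → F)
    (hq : ∀ x y z : F, q (x + y + z) + q (x + y) + q (x + z) + q (y + z) + q x + q y + q z = 0) :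
    ∃ c : (F ≃+* F) × (F ≃+* F) → F, ∀ x : F, q x = ∑ p, c p * (p.1 x * p.2 x) := by
  classical
  haveI : Fact (Nat.Prime 2) := ⟨Nat.prime_two⟩
  have h2 : ∀ x : F, x + x = 0 := CharTwo.add_self_eq_zero
  let b : F → F → F := fun x y => q (x + y) + q x + q y
  have hsymm : ∀ x y, b x y = b y x := by
    intro x y
    simp only [b]; rw [add_comm x y]; ring
  have hadd : ∀ x y z, b x (y + z) = b x y + b x z := by
    intro x y z
    have h := hq x y z
    simp only [b]
    rw [← add_assoc]
    linear_combination h - h2 (q (x + y)) - h2 (q (x + z)) - h2 (q x) - h2 (q y) - h2 (q z)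
  have hq0 : q 0 = 0 := by
    have h := hq 0 0 0
    simp only [add_zero] at h
    linear_combination h - 3 * h2 (q 0)
  have halt : ∀ x, b x x = 0 := by
    intro x
    simp only [b]
    rw [h2 x, hq0, zero_add, h2]
  -- expansion
  have hex : ∀ y, ∃ c : (F ≃+* F) → F, ∀ x, b x y = ∑ σ, c σ * σ x := by
    intro y
    apply additive_expand 2
    intro x z
    rw [hsymm, hadd, hsymm y x, hsymm y z]
  choose c hc using hex
  have hcadd : ∀ σ y z, c (y + z) σ = c y σ + c z σ := by
    intro σ y z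
    have h := auto_indep (fun σ => c (y + z) σ - (c y σ + c z σ)) (fun x => by
      simp only [sub_mul, add_mul, Finset.sum_sub_distrib, Finset.sum_add_distrib]
      rw [← hc, ← hc, ← hc, hadd, sub_self]) σ
    exact sub_eq_zero.1 h
  have hex2 : ∀ σ, ∃ d : (F ≃+* F) → F, ∀ y, c y σ = ∑ τ, d τ * τ y := fun σ =>
    additive_expand 2 (fun y => c y σ) (hcadd σ)
  choose d hd using hex2
  have hb : ∀ x y, b x y = ∑ p : (F ≃+* F) × (F ≃+* F), d p.1 p.2 * (p.1 x * p.2 y) := by
    intro x y
    rw [hc, Fintype.sum_prod_type]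
    apply Finset.sum_congr rfl
    intro σ _
    rw [hd, Finset.sum_mul]
    apply Finset.sum_congr rfl
    intro τ _
    ring
  have hdsymm : ∀ σ τ, d σ τ = d τ σ := by
    intro σ τ
    have h1 : ∀ y σ, ∑ τ, (d σ τ - d τ σ) * τ y = 0 := by
      intro y
      apply auto_indep
      intro x
      have h3 : b x y - b y x = 0 := by rw [hsymm, sub_self]
      rw [hb, hb, Fintype.sum_prod_type, Fintype.sum_prod_type, Finset.sum_comm (f := fun σ τ => d (σ, τ).1 (σ, τ).2 * ((σ, τ).1 y * (σ, τ).2 x)),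
        ← Finset.sum_sub_distrib] at h3
      rw [← h3]
      apply Finset.sum_congr rfl
      intro σ _
      rw [← Finset.sum_sub_distrib, Finset.sum_mul]
      apply Finset.sum_congr rfl
      intro τ _
      ring
    have h2' := auto_indep (fun τ => d σ τ - d τ σ) (fun y => h1 y σ) τ
    exact sub_eq_zero.1 h2'
  -- the diagonal vanishes
  obtain ⟨m, e⟩ : ∃ m, Nonempty ((F ≃+* F) ≃ Fin m) := ⟨_, ⟨Fintype.equivFin _⟩⟩
  obtain ⟨e⟩ := e
  have hsplit : ∀ D : (F ≃+* F) × (F ≃+* F) → F,
      ∑ p, D p = ∑ p ∈ Finset.univ.filter (fun p => e p.1 < e p.2), (D p + D p.swap) + ∑ σ, D (σ, σ) := by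
    intro D
    rw [← Finset.sum_filter_add_sum_filter_not Finset.univ (fun p : (F ≃+* F) × (F ≃+* F) => e p.1 < e p.2)]
    rw [Finset.sum_add_distrib, add_assoc]
    congr 1
    rw [← Finset.sum_filter_add_sum_filter_not (Finset.univ.filter (fun p : (F ≃+* F) × (F ≃+* F) => ¬ e p.1 < e p.2))
      (fun p => e p.2 < e p.1)]
    congr 1
    · symm
      apply Finset.sum_bij (fun p _ => p.swap)
      · intro p hp
        simp only [Finset.mem_filter, Finset.mem_univ, true_and, Prod.fst_swap, Prod.snd_swap] at hp ⊢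
        exact ⟨not_lt.2 hp.le, hp⟩
      · intro p _ r _ h
        exact Prod.swap_injective h
      · intro p hp
        simp only [Finset.mem_filter, Finset.mem_univ, true_and] at hp
        refine ⟨p.swap, ?_, Prod.swap_swap p⟩
        simp only [Finset.mem_filter, Finset.mem_univ, true_and, Prod.fst_swap, Prod.snd_swap]
        exact hp.2
      · intro p _; rfl
    · symm
      apply Finset.sum_bij (fun σ _ => ((σ, σ) : (F ≃+* F) × (F ≃+* F)))
      · intro σ _
        simp
      · intro σ _ τ _ h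
        exact congrArg Prod.fst h
      · intro p hp
        simp only [Finset.mem_filter, Finset.mem_univ, true_and, not_lt] at hp
        have h3 : p.1 = p.2 := e.injective (le_antisymm hp.2 hp.1)
        exact ⟨p.1, Finset.mem_univ _, Prod.ext rfl h3⟩
      · intro σ _; rfl
  have hdiag : ∀ σ, d σ σ = 0 := by
    apply auto_indep
    intro y
    obtain ⟨x, rfl⟩ : ∃ x : F, x * x = y := by
      obtain ⟨x, hx⟩ := FiniteField.isSquare_of_char_two (F := F) (ringChar.eq F 2) y
      exact ⟨x, hx.symm⟩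
    have h3 := halt x
    rw [hb, hsplit] at h3
    have h4 : ∑ p ∈ Finset.univ.filter (fun p : (F ≃+* F) × (F ≃+* F) => e p.1 < e p.2),
        (d p.1 p.2 * (p.1 x * p.2 x) + d p.swap.1 p.swap.2 * (p.swap.1 x * p.swap.2 x)) = 0 := by
      apply Finset.sum_eq_zero
      intro p _
      rw [Prod.fst_swap, Prod.snd_swap, hdsymm p.2 p.1, mul_comm (p.2 x) (p.1 x), h2]
    rw [h4, zero_add] at h3
    rw [← h3]
    apply Finset.sum_congr rfl
    intro σ _
    rw [map_mul]
  -- the quadratic part
  let q₀ : F → F := fun x => ∑ p ∈ Finset.univ.filter (fun p : (F ≃+* F) × (F ≃+* F) => e p.1 < e p.2),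
    d p.1 p.2 * (p.1 x * p.2 x)
  have hq₀ : ∀ x y, q₀ (x + y) + q₀ x + q₀ y = b x y := by
    intro x y
    rw [hb, hsplit]
    have h3 : ∑ σ : F ≃+* F, d (σ, σ).1 (σ, σ).2 * ((σ, σ).1 x * (σ, σ).2 y) = 0 := by
      apply Finset.sum_eq_zero
      intro σ _
      rw [hdiag, zero_mul]
    rw [h3, add_zero]
    simp only [q₀]
    rw [← Finset.sum_add_distrib, ← Finset.sum_add_distrib]
    apply Finset.sum_congr rfl
    intro p _
    rw [Prod.fst_swap, Prod.snd_swap, hdsymm p.2 p.1, map_add, map_add]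
    linear_combination d p.1 p.2 * (h2 (p.1 x * p.2 x) + h2 (p.1 y * p.2 y))
  obtain ⟨k, hk⟩ := additive_expand 2 (fun x => q x + q₀ x) (by
    intro x y
    have h3 := hq₀ x y
    simp only [b] at h3
    linear_combination h3 + h2 (q (x + y)) - h2 (q₀ x) - h2 (q₀ y))
  let fr : F ≃+* F := frobeniusEquiv F 2
  have hfr : ∀ x, fr x = x * x := by
    intro x
    change x ^ 2 = x * x
    rw [pow_two]
  refine ⟨fun p => (if e p.1 < e p.2 then d p.1 p.2 else 0) + (if p.1 = p.2 then k (fr.trans p.1) else 0), ?_⟩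
  intro x
  have h3 : q x = (q x + q₀ x) + q₀ x := by rw [add_assoc, h2, add_zero]
  have h4 := hk x
  rw [h3, h4]
  simp only [add_mul, Finset.sum_add_distrib, ite_mul, zero_mul]
  rw [add_comm]
  congr 1
  · simp only [q₀]
    rw [Finset.sum_filter]
  · rw [Fintype.sum_prod_type]
    simp only [Finset.sum_ite_eq, Finset.mem_univ, if_true]
    symm
    apply Fintype.sum_equiv (⟨fun σ => fr.trans σ, fun σ => fr.symm.trans σ, fun σ => by ext y; simp, fun σ => by ext y; simp⟩ :
      (F ≃+* F) ≃ (F ≃+* F))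
    intro σ
    change k (fr.trans σ) * (σ x * σ x) = k (fr.trans σ) * (σ (fr x))
    rw [hfr, map_mul]

end Cfsg.Agent.H20
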